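import Cfsg.Agent.H1.Ic0

/-! An involution normalizing an intrinsic component. -/

set_option autoImplicit false
set_option linter.dupNamespace false

namespace Cfsg.Agent.H1.Ic

open Subgroup Cfsg.Agent.FT Cfsg.Agent.GW

variable {G : Type*} [Group G] [Finite G] {J Q : Subgroup G} {a b : G}

omit [Finite G] in
theorem p5_dih (h : Ic J a) (hQ : Q ≤ J) (k : ℕ) : ∀ c ∈ Q, c ≠ 1 → c ^ 2 ^ k = 1 → b * c * b⁻¹ = c⁻¹ →
    (∃ n ∈ Q, n * b * n⁻¹ = c * b) → ∃ n ∈ Q, n * b * n⁻¹ = a * b := by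
  induction k with
  | zero => intro c _ h1 h2; exact (h1 (by simpa using h2)).elim
  | succ k ih =>
    intro c hc h1 h2 h3 h4
    by_cases e : c * c = 1
    · rwa [h.uniq c (hQ hc) (invo_of e h1)] at h4
    · refine ih (c * c) (mul_mem hc hc) e (by rw [← sq, ← pow_mul, ← pow_succ', h2])
        (by rw [← conj_mul, h3, mul_inv_rev]) ⟨c, hc, ?_⟩
      have : b * c⁻¹ * b⁻¹ = c := by rw [← conj_inv, h3, inv_inv]
      rw [mul_assoc, mul_assoc, mul_right_inj, ← mul_inv_eq_iff_eq_mul, this]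

theorem p5 (h : Ic J a) (hQ : Syl 2 Q J) (hb : Invo b) (hba : b ≠ a) (hn : b ∈ N(J)) (hQn : b ∈ N(Q)) :
    ⁅J, ⟪b⟫⁆ ≤ O[{2}ᶜ](J) ∨ ∃ n ∈ Q, n * b * n⁻¹ = a * b := by
  by_cases hc : ∀ q ∈ Q, q * b * q⁻¹ * b⁻¹ = 1
  swap
  · push Not at hc
    obtain ⟨q, hq, hc⟩ := hc
    have m : q * b * q⁻¹ * b⁻¹ ∈ Q := by
      rw [mul_assoc, mul_assoc, ← mul_assoc b]; exact mul_mem hq (mem_nrm.1 hQn _ (inv_mem hq))
    obtain ⟨k, hk⟩ := (hQ.pi.piElt m).exists_pow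
    refine .inr (p5_dih h hQ.le k _ m hc hk ?_ ⟨q, hq, by group⟩)
    simp only [mul_inv_rev, inv_inv, hb.inv, mul_assoc, hb.sq, mul_one]
  left
  have cq : ∀ q ∈ Q, q * b = b * q := fun q hq => by
    have := hc q hq
    rwa [mul_inv_eq_one, mul_inv_eq_iff_eq_mul] at this
  have bn : ⟪b⟫ ≤ N(J) := zpowers_le.2 hn
  have ca : ∀ x ∈ J, x * a = a * x := fun x hx => mem_cen1.1 (h.pc.subn.le hx)
  have aQ : a ∈ Q := hQ.mem_of_cen h.mem h.inv.pElt fun x hx => ca x (hQ.le hx)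
  obtain ⟨S, hS, hle⟩ := PiGrp.exists_syl (hQ.pi.sup hb.pGrp (zpowers_le.2 hQn)) (sup_le_sup_right hQ.le ⟪b⟫)
  have bS : b ∈ S := hle (mem_sup_right (mem_zpowers b))
  have SJ : S ⊓ J = Q := hQ.max (hS.pi.inf_left J) (le_inf (le_sup_left.trans hle) hQ.le) inf_le_right
  have key : ∀ g ∈ J, g * b * g⁻¹ ∈ S → g * b * g⁻¹ = b := by
    intro g hg hs
    have m : g * b * g⁻¹ * b⁻¹ ∈ Q := SJ ▸ mem_inf.2 ⟨mul_mem hs (inv_mem bS), by
      rw [mul_assoc, mul_assoc, ← mul_assoc b]; exact mul_mem hg (mem_nrm.1 hn _ (inv_mem hg))⟩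
    obtain ⟨q, e⟩ : ∃ q, q = g * b * g⁻¹ * b⁻¹ := ⟨_, rfl⟩
    rw [← e] at m
    have e1 : g * b * g⁻¹ = q * b := by rw [e, inv_mul_cancel_right]
    by_contra hne
    have qq : q * q = 1 := by
      have := (hb.conj g).sq
      rwa [e1, mul_assoc, ← mul_assoc b, ← cq q m, mul_assoc, hb.sq, mul_one] at this
    obtain rfl : q = a := h.uniq q (hQ.le m) (invo_of qq fun e2 => hne (by rw [e1, e2, one_mul]))
    have QH : Q ≤ J ⊓ C[b] := fun x hx => ⟨hQ.le hx, mem_cen1.2 (cq x hx)⟩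
    have gN : g ∈ N(J ⊓ C[b]) := mem_nrm.2 fun x hx => by
      have j : g * x * g⁻¹ ∈ J := mul_mem (mul_mem hg hx.1) (inv_mem hg)
      refine ⟨j, mem_cen1.2 ?_⟩
      have e2 : g * x * g⁻¹ * (q * b) = q * b * (g * x * g⁻¹) := by
        rw [← e1, conj_mul, conj_mul, mem_cen1.1 hx.2]
      rwa [← mul_assoc, ca _ j, mul_assoc q, mul_assoc q, mul_right_inj] at e2
    have HM : J ⊓ C[b] ≤ J ⊓ N(J ⊓ C[b]) := le_inf inf_le_left (le_nrm _)
    have od : ¬ 2 ∣ (J ⊓ C[b]).relIndex (J ⊓ N(J ⊓ C[b])) :=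
      ((hQ.subl (QH.trans HM) inf_le_left).relIndex_of_le QH).not_dvd Nat.prime_two rfl
    haveI : ((J ⊓ C[b]).subgroupOf (J ⊓ N(J ⊓ C[b]))).Normal :=
      (normal_subgroupOf_iff_le_normalizer HM).2 inf_le_right
    have pw : g ^ (J ⊓ C[b]).relIndex (J ⊓ N(J ⊓ C[b])) ∈ J ⊓ C[b] :=
      pow_index_mem ((J ⊓ C[b]).subgroupOf (J ⊓ N(J ⊓ C[b]))) ⟨g, hg, gN⟩
    obtain ⟨j, hj⟩ := Nat.odd_iff.2 (Nat.two_dvd_ne_zero.1 od)
    have g2 : g ^ 2 * b = b * g ^ 2 := by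
      have e2 := mul_inv_eq_iff_eq_mul.1 e1
      rw [sq, mul_assoc, e2, ← mul_assoc, ← mul_assoc, ca g hg, mul_assoc q, e2, ← mul_assoc, ← mul_assoc, qq,
        one_mul, mul_assoc]
    rw [hj, pow_succ, pow_mul] at pw
    have := (mul_mem_cancel_left (pow_mem (mem_cen1.2 g2) j)).1 pw.2
    exact hne (mul_inv_eq_iff_eq_mul.2 (mem_cen1.1 this))
  have z := zstar_rel hS bS fun g hg hs => by
    obtain ⟨j, hj, y, hy, rfl⟩ := (mem_sup_norm bn).1 hg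
    have e : j * y * b * (j * y)⁻¹ = j * b * j⁻¹ := by
      rcases hb.mem_zpowers.1 hy with rfl | rfl <;> group
    rw [e] at hs ⊢
    exact key j hj hs
  rw [← pcore_inf_nml _ (nml_sup_left bn)]
  exact le_inf ((commutator_mono le_sup_left le_rfl).trans z) (comm_le_left bn)

end Cfsg.Agent.H1.Ic
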