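import Mathlib
import Cfsg.Agent.H6.Galois

/-!
`-1` is a sum of two squares in a field containing `√5` and a root of unity of prime order.
-/

set_option autoImplicit false

namespace Cfsg.Agent.H16

open Finset

theorem level_two_of_four {K : Type*} [Field K] {a b c d : K} (hd : d ≠ 0)
    (h : a ^ 2 + b ^ 2 + c ^ 2 + d ^ 2 = 0) : ∃ x y : K, x ^ 2 + y ^ 2 + 1 = 0 := by
  by_cases h1 : a ^ 2 + d ^ 2 = 0
  · exact ⟨a / d, 0, by field_simp; linear_combination h1⟩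
  · exact ⟨(a * b + c * d) / (a ^ 2 + d ^ 2), (a * c - b * d) / (a ^ 2 + d ^ 2), by
      field_simp; linear_combination (a ^ 2 + d ^ 2) * h⟩

theorem exists_form_five {q : ℕ} (hq : q.Prime) (h : q % 20 = 3) :
    ∃ x w y : ℤ, y ≠ 0 ∧ q * (y ^ 2 + y ^ 2) = x ^ 2 + 5 * w ^ 2 := by
  have h5 : ¬ IsSquare ((3 : ℕ) : ZMod 5) := by decide
  have := Fact.mk hq
  have : Fact (Nat.Prime 5) := ⟨by norm_num⟩
  obtain ⟨t, ht⟩ : IsSquare (-5 : ZMod q) := by
    have h1 : ¬ IsSquare (-1 : ZMod q) := by rw [ZMod.exists_sq_eq_neg_one_iff]; omega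
    have h2 : ¬ IsSquare ((5 : ℕ) : ZMod q) := by
      rw [← ZMod.exists_sq_eq_prime_iff_of_mod_four_eq_one rfl (by omega), ← ZMod.natCast_mod,
        show q % 5 = 3 by omega]
      exact h5
    rw [← quadraticChar_neg_one_iff_not_isSquare] at h1 h2
    rw [← quadraticChar_one_iff_isSquare (fun e => by
      rw [Nat.cast_ofNat, neg_eq_zero.1 e] at h2; simp at h2), ← neg_one_mul, map_mul, h1]
    exact (congrArg _ h2).trans (by norm_num)
  obtain ⟨u, v, huv, e⟩ := Fintype.exists_ne_map_eq_of_card_lt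
    (fun x : Fin (q.sqrt + 1) × Fin (q.sqrt + 1) => ((x.1 : ℕ) : ZMod q) - t * (x.2 : ℕ))
    (by simpa using Nat.lt_succ_sqrt q)
  obtain ⟨k, hk⟩ : (q : ℤ) ∣ ((u.1 : ℕ) - (v.1 : ℕ) : ℤ) ^ 2 + 5 * ((u.2 : ℕ) - (v.2 : ℕ) : ℤ) ^ 2 := by
    rw [← ZMod.intCast_zmod_eq_zero_iff_dvd]
    push_cast
    linear_combination (((u.1 : ℕ) : ZMod q) - (v.1 : ℕ) + t * ((u.2 : ℕ) - (v.2 : ℕ))) * e -
      (((u.2 : ℕ) : ZMod q) - (v.2 : ℕ)) ^ 2 * ht
  have b0 : (q.sqrt : ℤ) ^ 2 < q := by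
    exact_mod_cast (Nat.sqrt_le' q).lt_of_ne fun e => hq.not_isSquare ⟨_, by rw [← pow_two, e]⟩
  have b : ∀ i j : Fin (q.sqrt + 1), ((i : ℕ) - (j : ℕ) : ℤ) ^ 2 < q := fun i j =>
    (sq_le_sq' (by omega) (by omega)).trans_lt b0
  have b1 : ((u.1 : ℕ) - (v.1 : ℕ) : ℤ) ≠ 0 ∨ ((u.2 : ℕ) - (v.2 : ℕ) : ℤ) ≠ 0 := by
    by_contra! h'
    exact huv (Prod.ext (Fin.ext (by omega)) (Fin.ext (by omega)))
  have b2 := b u.1 v.1
  have b3 := b u.2 v.2
  generalize ((u.1 : ℕ) - (v.1 : ℕ) : ℤ) = x at *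
  generalize ((u.2 : ℕ) - (v.2 : ℕ) : ℤ) = w at *
  have b4 : 0 < x ^ 2 + 5 * w ^ 2 := by rcases b1 with h | h <;> positivity
  have b5 : (0 : ℤ) < q := by exact_mod_cast hq.pos
  have b6 : 0 < k := by nlinarith
  have b7 : k < 6 := by nlinarith
  obtain ⟨r, rfl⟩ : ∃ r, q = 4 * r + 3 := ⟨q / 4, by omega⟩
  have b8 := congrArg (Int.cast : ℤ → ZMod 16) hk
  push_cast at b8
  have b9 := (by decide +kernel : ∀ x w r : ZMod 16, x ^ 2 + 5 * w ^ 2 ≠ (4 * r + 3) * 1 ∧
    x ^ 2 + 5 * w ^ 2 ≠ (4 * r + 3) * 4 ∧ x ^ 2 + 5 * w ^ 2 ≠ (4 * r + 3) * 5) x w r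
  interval_cases k
  · exact absurd b8 b9.1
  · exact ⟨x, w, 1, one_ne_zero, by linear_combination -hk⟩
  · exact ⟨x - 5 * w, x + w, 3, three_ne_zero, by linear_combination -6 * hk⟩
  · exact absurd b8 b9.2.1
  · exact absurd b8 b9.2.2

/-- Gauss's factorisation of the cyclotomic polynomial, evaluated in a subfield of `ℂ`. -/
theorem exists_gauss_form {K : Type*} [Field K] [Algebra K ℂ] {q : ℕ} (hq : q.Prime)
    (h : q % 4 = 3) (η : K) :
    ∃ A B : K, (η - 1) * (q * A ^ 2 + B ^ 2) = 4 * q * (η ^ q - 1) := by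
  classical
  have := Fact.mk hq
  have hζ := Complex.isPrimitiveRoot_exp q hq.ne_zero
  generalize Complex.exp _ = ζ at hζ
  have hc : ringChar (ZMod q) ≠ 2 := by rw [ZMod.ringChar_zmod_n]; omega
  let ψ := AddChar.zmodChar q hζ.pow_eq_one
  let χ := quadraticChar (ZMod q)
  let P : ℤ → ℂ := fun s => ∏ k with χ k = s, (algebraMap K ℂ η - ψ k)
  let g := gaussSum (χ.ringHomComp (Int.castRingHom ℂ)) ψ
  have hg : g ^ 2 = -q := by
    rw [gaussSum_sq ((MulChar.ringHomComp_ne_one_iff (RingHom.injective_int _)).2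
      (quadraticChar_ne_one hc)) ((quadraticChar_isQuadratic _).comp _)
      (AddChar.zmodChar_primitive_of_primitive_root q hζ), MulChar.ringHomComp_apply,
      quadraticChar_neg_one_iff_not_isSquare.2 (by rw [ZMod.exists_sq_eq_neg_one_iff]; omega)]
    simp
  have hψ : ∀ k, ψ k ^ q = 1 := fun k => by
    rw [← AddChar.map_nsmul_eq_pow, nsmul_eq_mul, ZMod.natCast_self, zero_mul,
      AddChar.map_zero_eq_one]
  have iψ : ∀ k, IsIntegral K (ψ k) := fun k =>
    IsIntegral.of_pow hq.pos (hψ k ▸ isIntegral_one)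
  have iP : ∀ s, IsIntegral K (P s) := fun s =>
    IsIntegral.prod _ fun k _ => isIntegral_algebraMap.sub (iψ k)
  have ig : IsIntegral K g := IsIntegral.of_pow two_pos (by
    rw [hg, ← map_natCast (algebraMap K ℂ)]; exact isIntegral_algebraMap.neg)
  have key : ∀ τ : ℂ ≃+* ℂ, (∀ a : K, τ (algebraMap K ℂ a) = algebraMap K ℂ a) →
      ∃ ε : ℤ, (ε = 1 ∨ ε = -1) ∧ (∀ s, τ (P s) = P (ε * s)) ∧ τ g = ε * g := by
    intro τ hτ
    obtain ⟨m, hm, e⟩ := H6.exists_pow_of_ringHom τ.toRingHom hq.ne_zero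
    have h1 : ∀ k, τ (ψ k) = ψ (ZMod.unitOfCoprime m hm * k) := fun k => by
      rw [ZMod.coe_unitOfCoprime, ← nsmul_eq_mul, AddChar.map_nsmul_eq_pow]
      exact e _ (hψ k)
    generalize ZMod.unitOfCoprime m hm = u at h1
    have h2 := quadraticChar_dichotomy u.ne_zero
    have h3 : χ u * χ u = 1 := by rcases h2 with h | h <;> simp [χ, h]
    refine ⟨χ u, h2, fun s => ?_, ?_⟩
    · simp only [P, map_prod, map_sub, hτ, h1]
      refine prod_bijective _ u.mulLeft_bijective (fun k => ?_) fun _ _ => rfl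
      simp only [mem_filter, mem_univ, true_and, map_mul]
      exact ⟨fun e => e ▸ rfl, fun e => mul_left_cancel₀ (left_ne_zero_of_mul_eq_one h3) e⟩
    · have h4 := gaussSum_mulShift (χ.ringHomComp (Int.castRingHom ℂ)) ψ u
      have h5 : τ g = gaussSum (χ.ringHomComp (Int.castRingHom ℂ)) (ψ.mulShift u) := by
        simp [g, gaussSum, h1]
      rw [h5, show g = _ from h4.symm, ← mul_assoc, MulChar.ringHomComp_apply, eq_intCast,
        ← Int.cast_mul, h3, Int.cast_one, one_mul]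
  obtain ⟨A, hA⟩ := H6.mem_range_of_fixed ((iP 1).add (iP (-1))) fun τ hτ => by
    obtain ⟨ε, rfl | rfl, h1, -⟩ := key τ hτ <;> simp [h1, add_comm]
  obtain ⟨B, hB⟩ := H6.mem_range_of_fixed (((iP 1).sub (iP (-1))).mul ig) fun τ hτ => by
    obtain ⟨ε, rfl | rfl, h1, h2⟩ := key τ hτ
    · simp [h1, h2]
    · simp only [map_mul, map_sub, h1, h2]
      simp only [mul_one, mul_neg, neg_neg, Int.cast_neg, Int.cast_one]
      ring
  have h1 : (algebraMap K ℂ η - 1) * (P 1 * P (-1)) = algebraMap K ℂ η ^ q - 1 := by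
    have h2 := congrArg (Polynomial.eval (algebraMap K ℂ η))
      (X_pow_sub_C_eq_prod hζ hq.pos (one_pow q))
    simp only [Polynomial.eval_sub, Polynomial.eval_pow, Polynomial.eval_X, Polynomial.eval_C,
      Polynomial.eval_prod, mul_one] at h2
    rw [h2, ← prod_nbij (s := univ) (t := range q) (f := fun k => algebraMap K ℂ η - ψ k) ZMod.val
      (fun k _ => mem_range.2 k.val_lt) (ZMod.val_injective q).injOn
      (fun i hi => ⟨i, by simp, ZMod.val_cast_of_lt (by simpa using hi)⟩) fun _ _ => rfl,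
      ← prod_fiberwise_of_maps_to (t := {0, 1, -1}) (g := χ)
        (fun k _ => by
          simpa only [mem_insert, mem_singleton] using quadraticChar_isQuadratic _ k),
      prod_insert (by simp), prod_pair (by simp)]
    congr 1
    rw [show ({k | χ k = 0} : Finset _) = {0} by
      ext; simp only [χ, mem_filter, mem_univ, true_and, mem_singleton, quadraticChar_eq_zero_iff]]
    simp
  refine ⟨A, B, (algebraMap K ℂ).injective ?_⟩
  simp only [map_mul, map_sub, map_add, map_pow, map_natCast, map_one, map_ofNat, hA, hB]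
  linear_combination 4 * q * h1 + (algebraMap K ℂ η - 1) * (P 1 - P (-1)) ^ 2 * hg

theorem level_two_of_algebra {K : Type*} [Field K] [Algebra K ℂ] {e η : K} {p : ℕ}
    (hp : p.Coprime 20) (he : e ^ 2 = 5) (h1 : η ^ p = 1) (h2 : η ≠ 1) :
    ∃ x y : K, x ^ 2 + y ^ 2 + 1 = 0 := by
  have : CharZero K := (algebraMap K ℂ).charZero
  have h0 : p ≠ 0 := by rintro rfl; simp at hp
  obtain ⟨a, a1, a2⟩ := Nat.chineseRemainder hp (p - 1) 3
  obtain ⟨q, -, hq, h3⟩ := Nat.forall_exists_prime_gt_and_modEq 0 (q := p * 20) (a := a)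
    (by omega) (Nat.Coprime.mul_right
      (by rw [Nat.Coprime, a1.gcd_eq]; exact (Nat.coprime_self_sub_left (by omega)).2 (by simp))
      (by rw [Nat.Coprime, a2.gcd_eq]; rfl))
  have h4 : q % 20 = 3 := (h3.of_mul_left p).trans a2
  have h5 : η ^ q * η = 1 := by
    rw [pow_eq_pow_mod _ h1, show q % p = _ from (h3.of_mul_right 20).trans a1,
      ← pow_eq_pow_mod _ h1, ← pow_succ, Nat.sub_add_cancel (by omega), h1]
  obtain ⟨m, rfl⟩ : Odd p := Nat.coprime_two_right.1 (hp.coprime_dvd_right (by norm_num))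
  obtain ⟨A, B, h6⟩ := exists_gauss_form hq (by omega) η
  obtain ⟨x, w, y, hy, h7⟩ := exists_form_five hq h4
  have h8 : (q : K) * (y ^ 2 + y ^ 2) = x ^ 2 + 5 * w ^ 2 := by exact_mod_cast h7
  have hq0 : (q : K) ≠ 0 := by exact_mod_cast hq.ne_zero
  have hy0 : (y : K) ≠ 0 := by exact_mod_cast hy
  have hη : η ≠ 0 := right_ne_zero_of_mul_eq_one h5
  have h9 : q * A ^ 2 + B ^ 2 = -4 * q * (η ^ m) ^ 2 := mul_left_cancel₀
    (mul_ne_zero hη (sub_ne_zero.2 h2)) (by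
      linear_combination η * h6 + 4 * q * h5 + 4 * q * (η - 1) * h1)
  refine level_two_of_four (a := A) (b := (x + e * w) / (2 * y) * B / q)
    (c := (x - e * w) / (2 * y) * B / q) (d := 2 * η ^ m) (by simp [hη]) ?_
  field_simp
  linear_combination 4 * y ^ 2 * q * h9 - 2 * B ^ 2 * h8 + 2 * B ^ 2 * w ^ 2 * he

theorem level_two_of_sqrt_five {F : Type*} [Field F] [CharZero F] {e η : F} {p : ℕ}
    (hp : p.Coprime 20) (he : e ^ 2 = 5) (h1 : η ^ p = 1) (h2 : η ≠ 1) :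
    ∃ x y : F, x ^ 2 + y ^ 2 + 1 = 0 := by
  have h0 : p ≠ 0 := by rintro rfl; simp at hp
  let K := algebraicClosure ℚ F
  have m1 : e ∈ K := mem_algebraicClosure_iff'.2 (IsIntegral.of_pow two_pos (by
    rw [he, ← map_ofNat (algebraMap ℚ F)]; exact isIntegral_algebraMap))
  have m2 : η ∈ K := mem_algebraicClosure_iff'.2
    (IsIntegral.of_pow (Nat.pos_of_ne_zero h0) (h1 ▸ isIntegral_one))
  have : Algebra.IsAlgebraic ℚ K := by
    convert algebraicClosure.isAlgebraic ℚ F <;> first | rfl | exact Subsingleton.elim _ _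
  letI : Algebra K ℂ := (IsAlgClosed.lift : K →ₐ[ℚ] ℂ).toRingHom.toAlgebra
  obtain ⟨x, y, h⟩ := level_two_of_algebra (K := K) (e := ⟨e, m1⟩) (η := ⟨η, m2⟩) hp
    (Subtype.ext he) (Subtype.ext h1) fun e => h2 (congrArg Subtype.val e)
  exact ⟨x, y, congrArg Subtype.val h⟩

end Cfsg.Agent.H16
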