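import Mathlib
import Cfsg.Agent.H16.LevelTwo
import Cfsg.Agent.H16.FCSolv

/-!
Non-solvable finite subgroups of division rings.
-/

set_option autoImplicit false

namespace Cfsg.Agent.H16

open Function Subgroup MatrixGroups

variable {D : Type*} [DivisionRing D]

theorem QP.not_level_two {I J a b : D} (h : I * I = -1) (hJ : J * J = -1) (hJI : J * I = -(I * J))
    (h2 : (2 : D) ≠ 0) (a1 : Commute a I) (a2 : Commute a J) (b1 : Commute b I) (b2 : Commute b J)
    (hab : Commute a b) : a ^ 2 + b ^ 2 + 1 ≠ 0 := fun e => by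
  have h1 : (a * I + b * J) * (a * I + b * J) = 1 := by
    rw [add_mul, mul_add, mul_add, a1.symm.mul_mul_mul_comm, b1.symm.mul_mul_mul_comm,
      a2.symm.mul_mul_mul_comm, b2.symm.mul_mul_mul_comm, h, hJ, hJI, hab.eq]
    linear_combination (norm := noncomm_ring) -e
  have h3 : I * J * (a * I + b * J) = -((a * I + b * J) * (I * J)) := by
    rw [mul_add, add_mul, ← mul_assoc, ← mul_assoc, ← (a1.mul_right a2).eq, ← (b1.mul_right b2).eq]
    linear_combination (norm := noncomm_ring) a * I * hJI + b * hJI * J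
  have h4 : I * J ≠ 0 := mul_ne_zero (by rintro rfl; simp at h) (by rintro rfl; simp at hJ)
  rcases mul_self_eq_one_iff.1 h1 with e | e <;> rw [e] at h3
  · exact h2 (mul_right_cancel₀ h4 (by linear_combination (norm := noncomm_ring) h3))
  · exact h2 (mul_right_cancel₀ h4 (by linear_combination (norm := noncomm_ring) -h3))

/-- Conjugation by an invertible matrix. -/
def conjSL {R : Type*} [CommRing R] (m n : Matrix (Fin 2) (Fin 2) R) (h1 : m * n = 1)
    (h2 : n * m = 1) : MulAut SL(2, R) where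
  toFun s := ⟨m * s * n, by
    rw [Matrix.det_mul, Matrix.det_mul, s.2, mul_one, ← Matrix.det_mul, h1, Matrix.det_one]⟩
  invFun s := ⟨n * s * m, by
    rw [Matrix.det_mul, Matrix.det_mul, s.2, mul_one, ← Matrix.det_mul, h2, Matrix.det_one]⟩
  left_inv s := Subtype.ext (by simp only [← mul_assoc, h2, one_mul]; rw [mul_assoc, h2, mul_one])
  right_inv s := Subtype.ext (by simp only [← mul_assoc, h1, one_mul]; rw [mul_assoc, h1, mul_one])
  map_mul' s t := Subtype.ext (by
    change m * (s.1 * t.1) * n = m * s.1 * n * (m * t.1 * n)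
    simp only [mul_assoc]
    rw [← mul_assoc n m, h2, one_mul])

/-- A quaternion unit in `SL(2,5)`. -/
def i5 : SL(2, ZMod 5) := ⟨!![0, 4; 1, 0], by decide⟩
/-- A quaternion unit in `SL(2,5)`. -/
def j5 : SL(2, ZMod 5) := ⟨!![2, 0; 0, 3], by decide⟩
/-- An element of order three in `SL(2,5)`. -/
def a5 : SL(2, ZMod 5) := ⟨!![0, 4; 1, 4], by decide⟩
/-- An element of order three in `SL(2,5)`. -/
def b5 : SL(2, ZMod 5) := ⟨!![0, 1; 4, 4], by decide⟩
/-- An outer automorphism of `SL(2,5)`. -/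
def out5 : MulAut SL(2, ZMod 5) := conjSL !![1, 4; 1, 1] !![3, 3; 2, 3] (by decide) (by decide)

theorem closure_a5_b5 : Subgroup.closure {a5, b5} = ⊤ := by
  have : Fact (Nat.Prime 5) := ⟨by norm_num⟩
  have ha : a5 ∈ Subgroup.closure {a5, b5} := Subgroup.subset_closure (by simp)
  have hb : b5 ∈ Subgroup.closure {a5, b5} := Subgroup.subset_closure (by simp)
  refine eq_top_iff.2 fun g _ => H19.St.sl_induction (p := (· ∈ Subgroup.closure _)) (fun t => ?_)
    (fun t => ?_) (fun _ _ => mul_mem) g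
  · rw [← ZMod.natCast_zmod_val t, ← one_mul (t.val : ZMod 5), (xx_val _ _).1,
      show H19.St.xx 1 = b5 * b5 * a5 * b5 * b5 * a5 from Subtype.ext (by decide +revert +kernel)]
    exact pow_mem (by apply_rules [mul_mem]) _
  · rw [← ZMod.natCast_zmod_val t, ← one_mul (t.val : ZMod 5), (xx_val _ _).2,
      show H19.St.yy 1 = b5 * a5 * a5 * b5 * a5 * a5 from Subtype.ext (by decide +revert +kernel)]
    exact pow_mem (by apply_rules [mul_mem]) _

section

variable {f : SL(2, ZMod 5) →* D} (hf : Injective f)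
include hf

theorem div_map_neg (g : SL(2, ZMod 5)) : f (-g) = -f g := by
  rw [← neg_one_mul, map_mul, (mul_self_eq_one_iff.1 (show f (-1) * f (-1) = 1 by
    rw [← map_mul]; simp)).resolve_left fun e => absurd (hf (e.trans f.map_one.symm))
      (by decide +kernel), neg_one_mul]

theorem div_two_ne_zero : (2 : D) ≠ 0 := fun e => absurd (hf (a₁ := -1) (a₂ := 1) (by
  rw [div_map_neg hf, neg_eq_iff_add_eq_zero, ← two_mul, e, zero_mul])) (by decide +kernel)

theorem div_three {a : SL(2, ZMod 5)} (h : a * (a * a) = 1) (h1 : a ≠ 1) :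
    f a⁻¹ = -f a - 1 ∧ f a * f a = -f a - 1 := by
  have h2 : (f a - 1) * (f a * f a + f a + 1) = 0 := by
    have := congrArg f h
    rw [map_mul, map_mul, map_one] at this
    linear_combination (norm := noncomm_ring) this
  have h3 : f a * f a = -f a - 1 := by
    have := (mul_eq_zero.1 h2).resolve_left fun e =>
      h1 (hf ((sub_eq_zero.1 e).trans f.map_one.symm))
    linear_combination (norm := noncomm_ring) this
  exact ⟨by rw [inv_eq_of_mul_eq_one_right h, map_mul, h3], h3⟩

theorem exists_sqrt_five : ∃ e : D, e * e = 5 ∧ (∀ s, Commute e (f s)) ∧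
    (∀ x : D, (∀ s, Commute x (f s)) → Commute x e) ∧
    ∀ y : D, (∀ s, y * f s = f (out5 s) * y) → y * e = -(e * y) := by
  obtain ⟨a1, a2⟩ := div_three hf (a := a5) (by decide +kernel) (by decide +kernel)
  obtain ⟨b1, b2⟩ := div_three hf (a := b5) (by decide +kernel) (by decide +kernel)
  obtain ⟨t, ht⟩ : ∃ t, t = f (a5 * b5⁻¹) + f (a5 * b5⁻¹)⁻¹ := ⟨_, rfl⟩
  have e1 : t = -(f a5 * f b5 + f b5 * f a5 + f a5 + f b5) := by
    rw [ht, mul_inv_rev, inv_inv, map_mul, map_mul, a1, b1]
    noncomm_ring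
  have e2 : f (a5 * b5) + f (a5 * b5)⁻¹ = 1 - t := by
    rw [e1, mul_inv_rev, map_mul, map_mul, a1, b1]
    noncomm_ring
  have e3 : ∀ s, Commute t (f s) := fun s => by
    refine closure_induction (p := fun s _ => Commute t (f s)) ?_ (by simp)
      (fun x y _ _ hx hy => map_mul f x y ▸ hx.mul_right hy)
      (fun x _ hx => map_inv f x ▸ hx.inv_right₀) (closure_a5_b5.ge (mem_top s))
    rintro _ (rfl | rfl)
    · change t * _ = _ * t
      rw [e1]
      linear_combination (norm := noncomm_ring) a2 * f b5 - f b5 * a2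
    · change t * _ = _ * t
      rw [e1]
      linear_combination (norm := noncomm_ring) b2 * f a5 - f a5 * b2
  have e4 : t * t = t + 1 := by
    obtain ⟨g, hg⟩ : ∃ g, g = a5 * b5⁻¹ := ⟨_, rfl⟩
    have h1 : f g * (f g * (f g * (f g * f g))) = -1 := by
      simp only [← map_mul]
      rw [show g * (g * (g * (g * g))) = -1 by rw [hg]; decide +kernel, div_map_neg hf, map_one]
    have h2 : f g * f g⁻¹ = 1 := by rw [← map_mul, mul_inv_cancel, map_one]
    have h3 : f g + 1 ≠ 0 := fun e => absurd (hf (a₁ := g) (a₂ := -1) (by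
      rw [div_map_neg hf, map_one]; exact eq_neg_of_add_eq_zero_left e))
      (by rw [hg]; decide +kernel)
    refine mul_left_cancel₀ (mul_ne_zero h3 (mul_ne_zero (left_ne_zero_of_mul_eq_one h2)
      (left_ne_zero_of_mul_eq_one h2))) ?_
    rw [ht, ← hg]
    generalize f g = x at *
    generalize f g⁻¹ = y at *
    linear_combination (norm := noncomm_ring) h1 + (x + 1) * (x * x * h2 + x * h2 * x +
      x * h2 * y + h2 - x * h2)
  refine ⟨t + t - 1, by
      rw [show (5 : D) = 1 + 1 + 1 + 1 + 1 by norm_num]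
      linear_combination (norm := noncomm_ring) e4 + e4 + e4 + e4,
    fun s => ((e3 s).add_left (e3 s)).sub_left (Commute.one_left _), fun x hx => ?_,
    fun y hy => ?_⟩
  · have : Commute x t := ht ▸ (hx _).add_right (hx _)
    exact (this.add_right this).sub_right (Commute.one_right _)
  · obtain ⟨s, hs⟩ : ∃ s, out5 (a5 * b5⁻¹) = s * (a5 * b5) * s⁻¹ :=
      ⟨⟨!![0, 2; 2, 4], by decide⟩, by decide +kernel⟩
    have h1 : y * t = (1 - t) * y := by
      have h2 : f s * (1 - t) * f s⁻¹ = 1 - t := by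
        rw [← ((Commute.one_left _).sub_left (e3 s)).eq, mul_assoc, ← map_mul, mul_inv_cancel,
          map_one, mul_one]
      rw [← h2, ← e2, ht, mul_add y, hy, hy, map_inv out5, hs, conj_inv]
      simp only [map_mul f _ s⁻¹, map_mul f s, mul_add, add_mul]
    linear_combination (norm := noncomm_ring) h1 + h1

end

theorem exists_level_two [CharZero D] {I J e η : D} {p : ℕ} (hp : p.Coprime 20) (he : e * e = 5)
    (h1 : η ^ p = 1) (h2 : η ≠ 1) (c1 : Commute e I) (c2 : Commute e J) (c3 : Commute η I)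
    (c4 : Commute η J) (c5 : Commute η e) : ∃ a b : D, Commute a I ∧ Commute a J ∧ Commute b I ∧
      Commute b J ∧ Commute a b ∧ a ^ 2 + b ^ 2 + 1 = 0 := by
  let C₀ : Subfield D := { Subring.centralizer {I, J} with
    inv_mem' := fun _ => Set.inv_mem_centralizer₀ }
  have m1 : e ∈ C₀ := by rintro _ (rfl | rfl); exacts [c1.symm, c2.symm]
  have m2 : η ∈ C₀ := by rintro _ (rfl | rfl); exacts [c3.symm, c4.symm]
  let C : Subfield C₀ := { Subring.centralizer {⟨e, m1⟩, ⟨η, m2⟩} with
    inv_mem' := fun _ => Set.inv_mem_centralizer₀ }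
  have m3 : ⟨e, m1⟩ ∈ C := by rintro _ (rfl | rfl); exacts [rfl, Subtype.ext c5]
  have m4 : ⟨η, m2⟩ ∈ C := by rintro _ (rfl | rfl); exacts [Subtype.ext c5.symm, rfl]
  let ι : Subring.center C →+* D := (C₀.subtype.comp C.subtype).comp (Subring.center C).subtype
  have := ι.charZero
  obtain ⟨a, b, h⟩ := level_two_of_sqrt_five (F := Subring.center C)
    (e := ⟨⟨_, m3⟩, Subring.mem_center_iff.2 fun x => Subtype.ext (x.2 _ (by simp)).symm⟩)
    (η := ⟨⟨_, m4⟩, Subring.mem_center_iff.2 fun x => Subtype.ext (x.2 _ (by simp)).symm⟩) hp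
    (ι.injective (by rw [map_pow, map_ofNat, pow_two]; exact he))
    (ι.injective (by rw [map_pow, map_one]; exact h1)) fun e => h2 (congrArg ι e)
  exact ⟨ι a, ι b, (a.1.1.2 I (by simp)).symm, (a.1.1.2 J (by simp)).symm,
    (b.1.1.2 I (by simp)).symm, (b.1.1.2 J (by simp)).symm, (Commute.all a b).map ι,
    by simpa using congrArg ι h⟩

theorem equiv_sl25_of_units {G : Type*} [Group G] [Finite G] (u : G →* Dˣ) (hu : Injective u)
    (hns : ¬ Group.IsSolvable G) : Nonempty (G ≃* SL(2, ZMod 5)) := by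
  have : Nontrivial G := not_subsingleton_iff_nontrivial.1 fun _ => hns inferInstance
  obtain ⟨φ, θ, M, h1, h2, h3, h4, -, -, h5, h6, -, h7⟩ :=
    (isFC_of_units u hu).noInt.nonsolvable_structure hns
  let F : G →* D := (Units.coeHom D).comp u
  have hF : Injective F := Units.val_injective.comp hu
  have hf : Injective (F.comp φ) := hF.comp h1
  have hI : F (φ i5) * F (φ i5) = -1 := by
    rw [← map_mul, ← map_mul, show i5 * i5 = -1 by decide +kernel]
    exact (div_map_neg hf 1).trans (by rw [map_one])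
  have hJ : F (φ j5) * F (φ j5) = -1 := by
    rw [← map_mul, ← map_mul, show j5 * j5 = -1 by decide +kernel]
    exact (div_map_neg hf 1).trans (by rw [map_one])
  have hJI : F (φ j5) * F (φ i5) = -(F (φ i5) * F (φ j5)) := by
    simp only [← map_mul]
    rw [show j5 * i5 = -(i5 * j5) by decide +kernel]
    exact div_map_neg hf _
  have h0 := div_two_ne_zero hf
  have hL := fun a b => QP.not_level_two (a := a) (b := b) hI hJ hJI h0
  have : CharZero D := by
    obtain ⟨p, hp⟩ := CharP.exists D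
    rcases CharP.char_is_prime_or_zero D p with hp' | rfl
    · have := Fact.mk hp'
      obtain ⟨a, b, e⟩ := ZMod.sq_add_sq p (-1)
      let ι := ZMod.castHom (dvd_refl p) D
      have : ∀ (x : ZMod p) (y : D), Commute (ι x) y := fun x y => by
        rw [← ZMod.natCast_zmod_val x, map_natCast]
        exact Nat.cast_commute _ _
      exact absurd (by simpa using congrArg ι (add_eq_zero_iff_eq_neg.2 e))
        (hL _ _ (this a _) (this a _) (this b _) (this b _) (this a _))
    · exact CharP.charP_to_charZero D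
  obtain ⟨e, e1, e2, e3, e4⟩ := exists_sqrt_five hf
  have hM : M = ⊥ := by
    by_contra hM
    obtain ⟨p, hp, hd⟩ := Nat.exists_prime_and_dvd (mt card_eq_one.1 hM)
    have := Fact.mk hp
    obtain ⟨x, hx⟩ := exists_prime_orderOf_dvd_card' p hd
    have c : ∀ s, Commute (F x) (F (φ s)) := fun s =>
      Commute.map (h3.le (h5 x.2) _ ⟨s, rfl⟩).symm F
    obtain ⟨a, b, c1, c2, c3, c4, c5, c6⟩ := exists_level_two (p := p) (η := F x)
      (((h6.coprime_dvd_left hd).pow_right 2).coprime_dvd_right (by norm_num)) e1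
      (by rw [← map_pow, ← coe_pow, ← hx, pow_orderOf_eq_one, coe_one, map_one])
      (fun e => hp.one_lt.ne' (by
        rw [← hx, orderOf_eq_one_iff]; exact Subtype.ext (hF (e.trans F.map_one.symm))))
      (e2 i5) (e2 j5) (c i5) (c j5) (e3 _ c)
    exact hL a b c1 c2 c3 c4 c5 c6
  rw [hM, sup_bot_eq] at h7
  obtain ⟨c, c1, c2, c3⟩ := exists_conj_hom h1
  obtain ⟨σ, s1, s2⟩ := exists_autSL25
  have hC : c.ker ≤ φ.range := by rw [c2, ← h3, h7]; exact ker_le_comap _ _
  have s3 : alternatingGroup (Fin 5) ≤ (σ.comp c).range := by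
    rw [← s2]
    rintro _ ⟨s, rfl⟩
    exact ⟨φ s, congrArg σ (c3 s)⟩
  rcases (Nat.dvd_prime Nat.prime_two).1 ((index_dvd_of_le s3).trans
    alternatingGroup.index_eq_two.dvd) with h8 | h8
  swap
  · refine ⟨(MulEquiv.ofBijective φ ⟨h1, fun g => ?_⟩).symm⟩
    obtain ⟨s, hs⟩ := (s2.trans (Equiv.Perm.eq_alternatingGroup_of_index_eq_two h8).symm).ge
      ⟨g, rfl⟩
    refine (mul_mem_cancel_right (inv_mem (φ.mem_range.2 ⟨s, rfl⟩))).1 (hC ?_)
    rw [MonoidHom.mem_ker, map_mul, map_inv, c3, ← s1 hs, mul_inv_cancel]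
  obtain ⟨y, hy⟩ := (index_eq_one.1 h8).ge (mem_top (σ out5))
  have y1 : ∀ s, F y * F (φ s) = F (φ (out5 s)) * F y := fun s => by
    rw [← s1 hy, c1, ← map_mul, ← map_mul, inv_mul_cancel_right]
  have y2 := e4 _ y1
  have y3 : F y * F (φ i5) = F (φ i5) * F y := by
    rw [y1, show out5 i5 = i5 by decide +kernel]
  have y4 : F y * F (φ j5) = F (φ i5) * F (φ j5) * F y := by
    rw [y1, show out5 j5 = i5 * j5 by decide +kernel, map_mul, map_mul]
  have y5 : F y * F y = F (φ i5) ∨ F y * F y = -F (φ i5) := by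
    have a1 : y * y * (φ i5)⁻¹ ∈ c.ker := by
      rw [MonoidHom.mem_ker, map_mul, map_mul, map_inv, c3, s1 hy, mul_inv_eq_one]
      exact MulEquiv.ext (by decide +kernel)
    obtain ⟨s, hs⟩ := hC a1
    have a2 : s ∈ center _ := mem_center_iff.2 fun t => h1 (by
      rw [map_mul, map_mul, hs]; exact c2.le a1 _ ⟨t, rfl⟩)
    rw [← map_mul, ← eq_mul_inv_iff_mul_eq.1 hs, ← map_mul]
    rcases mem_center_sl25.1 a2 with rfl | rfl
    · exact Or.inl (by rw [one_mul])
    · exact Or.inr (by rw [neg_one_mul]; exact div_map_neg hf _)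
  have q1 : Commute e (F (φ i5)) := e2 i5
  have q2 : Commute e (F (φ j5)) := e2 j5
  generalize F (φ i5) = I at *
  generalize F (φ j5) = J at *
  generalize F y = Y at *
  obtain ⟨w, hw⟩ : ∃ w, w = Y * (1 - I) := ⟨_, rfl⟩
  have w1 : Commute w I :=
    hw ▸ Commute.mul_left y3 ((Commute.one_left _).sub_left (Commute.refl _))
  have w2 : Commute w J := by
    change w * J = J * w
    rw [hw]
    linear_combination (norm := noncomm_ring) y4 - y3 * J - I * y4 - hI * J * Y + J * y3 +
      hJI * Y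
  have w3 : w * e = -(e * w) := by
    rw [hw]
    linear_combination (norm := noncomm_ring) y2 * (1 - I) + Y * q1.eq
  have w4 : w * w = Y * Y * -(I + I) := by
    rw [hw]
    linear_combination (norm := noncomm_ring) Y * y3 * (1 - I) + Y * Y * hI
  exfalso
  rcases y5 with y5 | y5
  · have h : QP I J := ⟨hI, hJ, hJI⟩
    have w5 : w * w = 1 + 1 := by
      rw [w4, y5]
      linear_combination (norm := noncomm_ring) -hI - hI
    rw [show (5 : D) = 1 + 1 + 1 + 1 + 1 by norm_num] at e1
    let b : Cz I J := ⟨w + e + w * e, by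
      rintro _ (rfl | rfl)
      exacts [((w1.add_left q1).add_left (w1.mul_left q1)).symm,
        ((w2.add_left q2).add_left (w2.mul_left q2)).symm]⟩
    have b1 : b * b = -(1 + 1 + 1) := Subtype.ext (by
      change (w + e + w * e) * (w + e + w * e) = -(1 + 1 + 1)
      linear_combination (norm := noncomm_ring) w5 + e1 + w3 + w * w3 + w3 * e + w * w3 * e -
        w5 * e * e - e1 - e1 - w3 * e + w3 * e - w * w3 * e + w * w3 * e)
    have b2 : qq b 1 1 1 * qq b (-1) (-1) (-1) = 0 := by
      rw [h.qq_mul, b1]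
      simp [qq]
    rcases mul_eq_zero.1 b2 with b3 | b3 <;> simpa using (h.qq_eq_zero b3).2.1
  · have w5 : w * w = -(1 + 1) := by
      rw [w4, y5]
      linear_combination (norm := noncomm_ring) hI + hI
    have w6 : w ≠ 0 := by
      rintro rfl
      exact h0 (by rw [← one_add_one_eq_two, ← neg_eq_zero, ← w5, mul_zero])
    refine hL w⁻¹ w⁻¹ w1.inv_left₀ w2.inv_left₀ w1.inv_left₀ w2.inv_left₀ (Commute.refl _)
      (mul_left_cancel₀ (pow_ne_zero 2 w6) ?_)
    rw [mul_add, mul_add, inv_pow, mul_inv_cancel₀ (pow_ne_zero 2 w6), pow_two, w5]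
    simp

end Cfsg.Agent.H16
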