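import Mathlib
import Cfsg.Agent.H16.Supp
import Cfsg.Agent.H16.PrimeDeg2

/-! Sharply 4-transitive groups (Jordan, Tits). -/

namespace Cfsg.Agent.H16

open MulAction

variable {G Ω : Type*} [Group G] [MulAction G Ω]

theorem sharp4_invol (h4 : IsMultiplyPretransitive G Ω 4)
    (hsharp : ∀ x : Fin 4 ↪ Ω, stabilizer G x = ⊥) {a b c d : Ω} (hab : a ≠ b) (hac : a ≠ c)
    (had : a ≠ d) (hbc : b ≠ c) (hbd : b ≠ d) (hcd : c ≠ d) :
    ∃ t : G, t • a = a ∧ t • b = b ∧ t • c = d ∧ t • d = c ∧ t * t = 1 ∧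
      {x : Ω | t • x = x}.Finite ∧ {x : Ω | t • x = x}.ncard ≤ 3 ∧
      ∀ β γ : Ω, t • β ≠ β → β ≠ c → β ≠ d → t • γ ≠ γ → γ ≠ c → γ ≠ d →
        ∃ g : G, g • c = c ∧ g • d = d ∧ g • β = γ ∧ g * t = t * g := by
  classical
  obtain ⟨t, ta, tb, tc, td⟩ := four_trans h4 hab hac had hbc hbd hcd hab had hac hbd hbc hcd.symm
  have htt : t * t = 1 := sharp_four hsharp hab hac had hbc hbd hcd (by rw [mul_smul, ta, ta])
    (by rw [mul_smul, tb, tb]) (by rw [mul_smul, tc, td]) (by rw [mul_smul, td, tc])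
  have htt' : ∀ x : Ω, t • t • x = x := fun x => by rw [← mul_smul, htt, one_smul]
  have ht1 : t ≠ 1 := by rintro rfl; rw [one_smul] at tc; exact hcd tc
  have hF : ∀ s : Finset Ω, (s : Set Ω) ⊆ {x : Ω | t • x = x} → s.card ≤ 3 := by
    intro s hs
    by_contra h
    exact ht1 (sharp_finset hsharp s (by omega) t fun x hx => hs hx)
  have hfin : {x : Ω | t • x = x}.Finite := by
    by_contra h
    obtain ⟨s, hs, hc⟩ := Set.Infinite.exists_subset_card_eq h 4
    have := hF s hs
    omega
  refine ⟨t, ta, tb, tc, td, htt, hfin, ?_, ?_⟩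
  · rw [Set.ncard_eq_toFinset_card _ hfin]
    exact hF _ (by simp)
  · intro β γ h1 h2 h3 h4' h5 h6
    have k : ∀ β : Ω, β ≠ c → β ≠ d → c ≠ t • β ∧ d ≠ t • β := fun β h2 h3 =>
      ⟨fun e => h3 (by rw [← htt' β, ← e, tc]), fun e => h2 (by rw [← htt' β, ← e, td])⟩
    obtain ⟨g, gc, gd, gβ, gt⟩ := four_trans h4 hcd h2.symm (k β h2 h3).1 h3.symm (k β h2 h3).2
      h1.symm hcd h5.symm (k γ h5 h6).1 h6.symm (k γ h5 h6).2 h4'.symm
    refine ⟨g, gc, gd, gβ, ?_⟩
    have : (t * g)⁻¹ * (g * t) = 1 := by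
      apply sharp_four hsharp hcd h2.symm (k β h2 h3).1 h3.symm (k β h2 h3).2 h1.symm
      all_goals rw [mul_smul, inv_smul_eq_iff, mul_smul, mul_smul]
      · rw [tc, gd, gc, tc]
      · rw [td, gd, gc, td]
      · rw [gt, gβ]
      · rw [htt', gt, htt', gβ]
    rw [inv_mul_eq_one] at this
    exact this.symm

theorem sharp4_bound (h4 : IsMultiplyPretransitive G Ω 4)
    (hsharp : ∀ x : Fin 4 ↪ Ω, stabilizer G x = ⊥) (hne : Nonempty (Fin 4 ↪ Ω)) :
    Finite Ω ∧ Nat.card Ω ≤ 11 ∧ (Even (Nat.card Ω) → Nat.card Ω ≤ 6) ∧ Nat.card Ω ≠ 9 ∧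
      ∃ t : G, t ≠ 1 ∧ {x : Ω | t • x ≠ x}.ncard ≤ Nat.card Ω - 2 ∧
        (Odd (Nat.card Ω) → {x : Ω | t • x ≠ x}.ncard ≤ Nat.card Ω - 3) := by
  classical
  obtain ⟨x⟩ := hne
  have hab : x 0 ≠ x 1 := x.injective.ne (by decide)
  have hac : x 0 ≠ x 2 := x.injective.ne (by decide)
  have had : x 0 ≠ x 3 := x.injective.ne (by decide)
  have hbc : x 1 ≠ x 2 := x.injective.ne (by decide)
  have hbd : x 1 ≠ x 3 := x.injective.ne (by decide)
  have hcd : x 2 ≠ x 3 := x.injective.ne (by decide)
  generalize x 0 = a at *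
  generalize x 1 = b at *
  generalize x 2 = c at *
  generalize x 3 = d at *
  obtain ⟨t, ta, tb, tc, td, htt, hfin, h3, htr⟩ := sharp4_invol h4 hsharp hab hac had hbc hbd hcd
  have ht1 : t ≠ 1 := by rintro rfl; rw [one_smul] at tc; exact hcd tc
  set F : Set Ω := {x : Ω | t • x = x} with hF
  let M : Set Ω := {x : Ω | t • x ≠ x ∧ x ≠ c ∧ x ≠ d}
  -- the group `C` of elements centralising `t` and fixing `c`
  let C : Subgroup G := Subgroup.centralizer {t} ⊓ stabilizer G c
  have hC : ∀ g, g ∈ C ↔ g * t = t * g ∧ g • c = c := fun g => by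
    simp [C, Subgroup.mem_centralizer_iff, eq_comm]
  have hCd : ∀ g ∈ C, g • d = d := fun g hg => by
    rw [← tc, ← mul_smul, ((hC g).1 hg).1, mul_smul, ((hC g).1 hg).2]
  have hCF : ∀ g ∈ C, ∀ y ∈ F, g • y ∈ F := fun g hg y hy => by
    change t • g • y = g • y
    rw [← mul_smul, ← ((hC g).1 hg).1, mul_smul, show t • y = y from hy]
  let A : SubMulAction C Ω := ⟨F, fun g {y} hy => hCF g g.2 y hy⟩
  have hAf : FaithfulSMul C A := ⟨fun {g h} e => by
    apply Subtype.ext
    rw [← inv_mul_eq_one]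
    have e1 : (g : G) • a = (h : G) • a := congrArg Subtype.val (e ⟨a, ta⟩)
    have e2 : (g : G) • b = (h : G) • b := congrArg Subtype.val (e ⟨b, tb⟩)
    apply sharp_four hsharp hab hac had hbc hbd hcd
    all_goals rw [mul_smul, inv_smul_eq_iff]
    · exact e1.symm
    · exact e2.symm
    · rw [((hC g).1 g.2).2, ((hC h).1 h.2).2]
    · rw [hCd g g.2, hCd h h.2]⟩
  have hAfin : Finite A := hfin
  have hAc : Nat.card A = F.ncard := rfl
  have hdvd : Nat.card C ∣ F.ncard.factorial := by
    have := Fintype.ofFinite A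
    rw [← hAc, ← Nat.card_perm]
    exact Subgroup.card_dvd_of_injective (toPermHom C A) toPerm_injective
  have hCfin : Finite C := Finite.of_injective _ (toPerm_injective (α := C) (β := A))
  have hM : M.Finite ∧ (M.ncard = 0 ∨ M.ncard ∣ Nat.card C) := by
    rcases M.eq_empty_or_nonempty with h | ⟨β, hβ⟩
    · rw [h]; simp
    · have : orbit C β = M := by
        ext γ
        constructor
        · rintro ⟨g, rfl⟩
          have h1 := (hC g).1 g.2
          refine ⟨fun e => hβ.1 ?_, fun e => hβ.2.1 ?_, fun e => hβ.2.2 ?_⟩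
          · apply smul_left_cancel (g : G)
            rw [← mul_smul, h1.1, mul_smul]; exact e
          · apply smul_left_cancel (g : G)
            rw [h1.2]; exact e
          · apply smul_left_cancel (g : G)
            rw [hCd g g.2]; exact e
        · intro hγ
          obtain ⟨g, g1, -, g2, g3⟩ := htr β γ hβ.1 hβ.2.1 hβ.2.2 hγ.1 hγ.2.1 hγ.2.2
          exact ⟨⟨g, (hC g).2 ⟨g3, g1⟩⟩, g2⟩
      rw [← this]
      exact ⟨Set.finite_range _, Or.inr (ncard_orbit_dvd β)⟩
  have hU : {x : Ω | t • x ≠ x} = insert c (insert d M) := by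
    ext y
    simp only [Set.mem_ofPred_eq, Set.mem_insert_iff, M]
    constructor
    · intro h; tauto
    · rintro (rfl | rfl | h)
      · rw [tc]; exact hcd.symm
      · rw [td]; exact hcd
      · exact h.1
  have hUc : {x : Ω | t • x ≠ x}.ncard = M.ncard + 2 := by
    rw [hU, Set.ncard_insert_of_notMem (by simp [M, hcd]) (hM.1.insert d),
      Set.ncard_insert_of_notMem (by simp [M]) hM.1]
  have hΩ : Finite Ω := by
    have : (Set.univ : Set Ω) = F ∪ {x : Ω | t • x ≠ x} := by
      ext y; simp [hF, em]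
    rw [← Set.finite_univ_iff, this, hU]
    exact hfin.union ((hM.1.insert d).insert c)
  have hn : Nat.card Ω = F.ncard + (M.ncard + 2) := by
    rw [← hUc, ← Set.ncard_add_ncard_compl F]; rfl
  have h2 : 2 ≤ F.ncard := by
    rw [← Set.ncard_pair hab]
    exact Set.ncard_le_ncard (by rintro y (rfl | rfl) <;> assumption) hfin
  have hpar : Nat.card Ω ≡ F.ncard [MOD 2] := by
    have := ncard_modEq_of_pelt (k := 1) Nat.prime_two (g := t) (by rw [pow_one, pow_two, htt])
      (Set.univ : Set Ω) Set.finite_univ (fun _ _ => trivial)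
    simpa using this
  unfold Nat.ModEq at hpar
  have hM' : M.ncard = 0 ∨ M.ncard ∣ F.ncard.factorial := hM.2.imp_right fun h => h.trans hdvd
  rw [Nat.even_iff, Nat.odd_iff]
  refine ⟨hΩ, ?_, ?_, ?_, t, ht1, by omega, by omega⟩
  all_goals
    generalize M.ncard = m at *
    generalize F.ncard = f at *
    interval_cases f
    · rcases hM' with h | h
      · omega
      · have := Nat.le_of_dvd (by norm_num) h
        simp [Nat.factorial] at this; omega
    · rcases hM' with h | h
      · omega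
      · have := Nat.le_of_dvd (by norm_num) h
        simp [Nat.factorial] at this h
        interval_cases m <;> omega

/-- degrees of finite sharply 4-transitive actions -/
theorem sharp4_degree [Finite Ω] (h4 : IsMultiplyPretransitive G Ω 4)
    (hsharp : ∀ x : Fin 4 ↪ Ω, stabilizer G x = ⊥) (hn : 4 ≤ Nat.card Ω) :
    Nat.card Ω = 4 ∨ Nat.card Ω = 5 ∨ Nat.card Ω = 6 ∨ Nat.card Ω = 11 := by
  classical
  have := Fintype.ofFinite Ω
  have hne : Nonempty (Fin 4 ↪ Ω) := by
    apply Function.Embedding.nonempty_of_card_le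
    rwa [Fintype.card_fin, ← Nat.card_eq_fintype_card]
  obtain ⟨-, h1, h2, h3, t, ht1, -, ht⟩ := sharp4_bound h4 hsharp hne
  have h7 : Nat.card Ω ≠ 7 := by
    intro h7
    have hf : FaithfulSMul G Ω := ⟨fun {g h} e => by
      rw [← inv_mul_eq_one]
      exact sharp_finset hsharp Finset.univ (by rw [Finset.card_univ, ← Nat.card_eq_fintype_card]; omega)
        _ fun x _ => by rw [mul_smul, ← e, inv_smul_smul]⟩
    have := alt_le_of_small_support (G := (toPermHom G Ω).range) (k := 4) (by omega)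
      (by rw [← Nat.card_eq_fintype_card]; omega) (mtrans_range_iff.2 h4) (g := toPermHom G Ω t)
      ⟨t, rfl⟩ (fun e => ht1 (toPerm_injective (β := Ω) (e.trans (map_one (toPermHom G Ω)).symm)))
      (by
        have := ht (by rw [h7]; decide)
        have e : (toPermHom G Ω t).support.card = {x : Ω | t • x ≠ x}.ncard := by
          rw [← Set.ncard_coe_finset]; congr 1; ext y; simp
        omega)
    have h5 := Subgroup.card_le_of_le this
    rw [← Nat.card_congr (MonoidHom.ofInjective (f := toPermHom G Ω) toPerm_injective).toEquiv,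
      card_of_sharp h4 hn hsharp, h7] at h5
    have : Nontrivial Ω := Finite.one_lt_card_iff_nontrivial.1 (by omega)
    have h6 := two_mul_nat_card_alternatingGroup (α := Ω)
    rw [Nat.card_perm, h7] at h6
    simp [Nat.factorial, Nat.descFactorial] at h5 h6
    omega
  rw [Nat.even_iff] at h2
  omega

theorem sharp_ofStabilizer {k : ℕ} (hsharp : ∀ x : Fin (k + 1) ↪ Ω, stabilizer G x = ⊥) (a : Ω) :
    ∀ x : Fin k ↪ SubMulAction.ofStabilizer G a, stabilizer (stabilizer G a) x = ⊥ := by
  classical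
  apply sharp_of_finset
  intro s hs g hg
  apply Subtype.ext
  apply sharp_finset hsharp (insert a (s.map (Function.Embedding.subtype _)))
  · rw [Finset.card_insert_of_notMem, Finset.card_map, hs]
    rw [Finset.mem_map]
    rintro ⟨y, -, hy⟩
    exact y.2 hy
  · intro y hy
    rw [Finset.mem_insert, Finset.mem_map] at hy
    rcases hy with rfl | ⟨y, hy, rfl⟩
    · exact g.2
    · exact congrArg Subtype.val (hg y hy)

theorem faithful_of_sharp [Finite Ω] {k : ℕ} (hsharp : ∀ x : Fin k ↪ Ω, stabilizer G x = ⊥)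
    (hn : k ≤ Nat.card Ω) : FaithfulSMul G Ω := by
  have := Fintype.ofFinite Ω
  exact ⟨fun {g h} e => by
    rw [← inv_mul_eq_one]
    exact sharp_finset hsharp Finset.univ
      (by rw [Finset.card_univ, ← Nat.card_eq_fintype_card]; omega)
      _ fun x _ => by rw [mul_smul, ← e, inv_smul_smul]⟩

universe u v in
/-- degrees of finite sharply `(k+4)`-transitive actions -/
theorem sharp_degree (k : ℕ) : ∀ (G : Type u) (Ω : Type v) [Group G] [MulAction G Ω] [Finite Ω],
    IsMultiplyPretransitive G Ω (k + 4) → (∀ x : Fin (k + 4) ↪ Ω, stabilizer G x = ⊥) →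
    k + 4 ≤ Nat.card Ω → Nat.card Ω = k + 4 ∨ Nat.card Ω = k + 5 ∨ Nat.card Ω = k + 6 ∨
      (Nat.card Ω = k + 11 ∧ k ≤ 1) := by
  induction k with
  | zero =>
    intro G Ω _ _ _ h hs hn
    have := sharp4_degree h hs hn
    omega
  | succ k ih =>
    intro G Ω _ _ _ h hs hn
    obtain ⟨a⟩ : Nonempty Ω := (Nat.card_pos_iff.1 (by omega)).1
    have htr := trans_of_mtrans h (by omega) hn
    have := ih (stabilizer G a) (SubMulAction.ofStabilizer G a)
      (SubMulAction.ofStabilizer.isMultiplyPretransitive.1 h) (sharp_ofStabilizer hs a)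
      (by rw [card_ofStabilizer]; omega)
    rw [card_ofStabilizer] at this
    have h13 : ¬ (k = 1 ∧ Nat.card Ω = 13) := by
      rintro ⟨rfl, h13⟩
      have hf := faithful_of_sharp hs hn
      have : Finite G := Finite.of_injective _ (toPerm_injective (α := G) (β := Ω))
      have hc := card_of_sharp h hn hs
      haveI : Fact (Nat.Prime 13) := ⟨by norm_num⟩
      obtain ⟨P⟩ : Nonempty (Sylow 13 G) := inferInstance
      have h1 := card_eq_prime_deg h13 P
      have h2 := relIndex_normalizer_dvd_prime_deg h13 P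
      have h3 := card_sylow_modEq_one 13 G
      rw [hc, h13] at h1
      generalize (P : Subgroup G).relIndex _ = k at h1 h2
      generalize Nat.card (Sylow 13 G) = m at h1 h3
      have h4 := Nat.le_of_dvd (by norm_num) h2
      unfold Nat.ModEq at h3
      simp [Nat.descFactorial] at h1
      interval_cases k <;> omega
    omega

end Cfsg.Agent.H16
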