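import Mathlib
import Cfsg.Agent.S3362
import Cfsg.Agent.S0713
import Cfsg.Agent.S0675
import Cfsg.Agent.H16.Sharp4
import Cfsg.Agent.H16.LW
import Cfsg.Agent.H16.Derang
import Cfsg.Agent.H23.M11b

/-! Permutation groups of degree eleven. -/

set_option autoImplicit false
set_option linter.unusedSectionVars false
set_option linter.unusedVariables false

namespace Cfsg.Agent.H16.D11
open MulAction Subgroup Equiv

section
variable {G β : Type*} [Group G] [Finite G] [MulAction G β] [Finite β]

theorem fix720 [IsPretransitive G β] (hβ : Nat.card β = 11) (hG : Nat.card G = 7920)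
    (hs : ∀ x : Fin 4 ↪ β, stabilizer G x = ⊥) {K : Subgroup G} (hK : Nat.card K = 720) :
    ∃ b : β, K = stabilizer G b := by
  classical
  have := Fintype.ofFinite β
  have hc : Fintype.card β = 11 := by rw [← Nat.card_eq_fintype_card, hβ]
  suffices h : ∃ b : β, K ≤ stabilizer G b by
    obtain ⟨b, h⟩ := h
    have := card_eq_card_mul_stabilizer (G := G) b
    exact ⟨b, eq_of_le_of_card_ge h (by rw [hβ] at this; omega)⟩
  obtain ⟨z⟩ : Nonempty β := Fintype.card_pos_iff.1 (by omega)
  let S := (orbit K z).toFinset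
  have hS : ∀ (g : K) (x : β), g • x ∈ S ↔ x ∈ S := fun g x => by
    rw [Set.mem_toFinset, Set.mem_toFinset, ← Set.smul_mem_smul_set_iff (a := g) (x := x),
      smul_orbit]
  have c1 := Finset.card_compl_add_card S
  have d := ncard_orbit_dvd (G := K) z
  rw [Set.ncard_eq_toFinset_card', hK] at d
  have one : ∀ T : Finset β, T.card = 1 → (∀ (g : K), ∀ x ∈ T, g • x ∈ T) →
      ∃ b : β, K ≤ stabilizer G b := fun T h1 h2 => by
    obtain ⟨b, rfl⟩ := Finset.card_eq_one.1 h1
    exact ⟨b, fun g hg => Finset.mem_singleton.1 (h2 ⟨g, hg⟩ b (Finset.mem_singleton_self b))⟩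
  have hS' : ∀ (g : K), ∀ x ∈ Sᶜ, g • x ∈ Sᶜ := fun g x => by simp only [Finset.mem_compl, hS, imp_self]
  by_cases h1 : S.card = 1
  · exact one S h1 fun g x => (hS g x).2
  by_cases h2 : Sᶜ.card = 1
  · exact one _ h2 hS'
  have h0 : 0 < S.card := Finset.card_pos.2 ⟨z, Set.mem_toFinset.2 (mem_orbit_self z)⟩
  have h11 : S.card ≠ 11 := fun e => by change S.card ∣ _ at d; rw [e] at d; omega
  obtain ⟨a, ha, b, hb, ab⟩ := Finset.one_lt_card.1 (show 1 < S.card by omega)
  obtain ⟨c, hc', e, he, ce⟩ := Finset.one_lt_card.1 (show 1 < Sᶜ.card by omega)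
  have n : ∀ x ∈ S, ∀ y ∈ Sᶜ, x ≠ y := fun x hx y hy e => Finset.mem_compl.1 hy (e ▸ hx)
  have := Nat.card_le_card_of_injective (β := ↥(S.offDiag ×ˢ Sᶜ.offDiag))
    (fun g : K => ⟨((g • a, g • b), (g • c, g • e)), by
      simp only [Finset.mem_product, Finset.mem_offDiag, hS, ne_eq, smul_left_cancel_iff]
      exact ⟨⟨ha, hb, ab⟩, hS' g c hc', hS' g e he, ce⟩⟩) fun g h E => by
      simp only [Subtype.mk.injEq, Prod.mk.injEq] at E
      refine Subtype.ext (inv_mul_eq_one.1 (sharp_four hs ab (n a ha c hc') (n a ha e he)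
        (n b hb c hc') (n b hb e he) ce ?_ ?_ ?_ ?_)) <;> rw [mul_smul, inv_smul_eq_iff]
      exacts [E.1.1.symm, E.1.2.symm, E.2.1.symm, E.2.2.symm]
  rw [hK, Nat.card_eq_fintype_card, Fintype.card_coe, Finset.card_product, Finset.offDiag_card,
    Finset.offDiag_card, show Sᶜ.card = 11 - S.card by omega] at this
  have : S.card ≤ 11 := by omega
  generalize S.card = s at *
  interval_cases s <;> omega

theorem simple7920 [FaithfulSMul G β] [IsPretransitive G β] (hβ : Nat.card β = 11)
    (h : Nat.card G = 7920) : IsSimpleGroup G := by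
  haveI : Fact (Nat.Prime 11) := ⟨by norm_num⟩
  obtain ⟨P⟩ : Nonempty (Sylow 11 G) := inferInstance
  have h1 := card_eq_prime_deg hβ P
  have h2 := relIndex_normalizer_dvd_prime_deg hβ P
  have h3 := card_sylow_modEq_one 11 G
  refine simple_of_prime_deg hβ P ?_ ?_
  all_goals
    rw [h] at h1
    generalize (P : Subgroup G).relIndex _ = k at h1 h2 ⊢
    generalize Nat.card (Sylow 11 G) = m at h1 h3 ⊢
    have h4 := Nat.le_of_dvd (by norm_num) h2
    unfold Nat.ModEq at h3
    interval_cases k <;> first | omega | norm_num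

theorem sharp7920 [FaithfulSMul G β] [IsPretransitive G β] (hβ : Nat.card β = 11)
    (h : Nat.card G = 7920) :
    IsMultiplyPretransitive G β 4 ∧ ∀ x : Fin 4 ↪ β, stabilizer G x = ⊥ := by
  classical
  obtain ⟨M, t5, s5⟩ : ∃ M : Subgroup (Perm (Fin 12)), IsMultiplyPretransitive M (Fin 12) 5 ∧
      ∀ y : Fin 5 ↪ Fin 12, stabilizer M y = ⊥ :=
    ⟨_, (S3362.result _ _ _ _ _ _ _ _ rfl rfl rfl rfl rfl rfl rfl rfl _ _ rfl rfl).imp_right And.left⟩
  have := trans_of_mtrans t5 (by omega) (by simp)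
  have t4 := (SubMulAction.ofStabilizer.isMultiplyPretransitive (a := (2 : Fin 12))).1 t5
  have s4 := sharp_ofStabilizer s5 (2 : Fin 12)
  have c : Nat.card (SubMulAction.ofStabilizer M (2 : Fin 12)) = 11 := by
    rw [SubMulAction.nat_card_ofStabilizer_eq]; simp
  have := faithful_of_sharp s4 (by omega)
  have t1 := trans_of_mtrans t4 (by omega) (by omega)
  have cM := card_of_sharp t4 (by omega) s4
  rw [c] at cM
  have := simple7920 c cM
  have := simple7920 hβ h
  obtain ⟨e1⟩ := H23.M11.iso h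
  obtain ⟨e2⟩ := H23.M11.iso cM
  let e := e1.trans e2.symm
  letI := compHom (SubMulAction.ofStabilizer M (2 : Fin 12)) e.toMonoidHom
  have : IsPretransitive G (SubMulAction.ofStabilizer M (2 : Fin 12)) := ⟨fun x y => by
    obtain ⟨g, hg⟩ := t1.exists_smul_eq x y
    obtain ⟨g, rfl⟩ := e.surjective g
    exact ⟨g, hg⟩⟩
  have s : ∀ x : Fin 4 ↪ SubMulAction.ofStabilizer M (2 : Fin 12), stabilizer G x = ⊥ :=
    sharp_iff.2 fun x hx g hg => (map_eq_one_iff e e.injective).1 (sharp_iff.1 s4 x hx (e g) hg)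
  have cs : ∀ a : β, Nat.card (stabilizer G a) = 720 := fun a => by
    have := card_eq_card_mul_stabilizer (G := G) a
    rw [hβ] at this; omega
  choose f hf using fun a : β => fix720 c h s (cs a)
  have : IsPreprimitive G β := IsPreprimitive.of_prime_card (by rw [hβ]; norm_num)
  have fi : Function.Injective f := fun a b E => by
    by_contra ab
    have := cs a
    rw [stabilizer_eq_bot_of_le ab ((hf a).trans (E ▸ (hf b).symm)).le] at this
    simp at this
  have sh : ∀ x : Fin 4 ↪ β, stabilizer G x = ⊥ := sharp_iff.2 fun x hx g hg =>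
    sharp_iff.1 s (f ∘ x) (fi.comp hx) g fun i => (hf (x i)).le (hg i)
  have := Fintype.ofFinite β
  obtain ⟨x⟩ : Nonempty (Fin 4 ↪ β) := Function.Embedding.nonempty_of_card_le (by
    rw [← Nat.card_eq_fintype_card (α := β), hβ]; simp)
  refine ⟨trans_of_ncard_orbit x ?_, sh⟩
  rw [← index_stabilizer, sh, index_bot, h, Nat.card_eq_fintype_card, Fintype.card_embedding_eq,
    ← Nat.card_eq_fintype_card (α := β), hβ]
  simp

end

end Cfsg.Agent.H16.D11
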