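import Mathlib
import Cfsg.Agent.S0713
import Cfsg.Agent.S0675
import Cfsg.Agent.H16.Sharp4
import Cfsg.Agent.H16.LW
import Cfsg.Agent.H16.Derang

/-! Permutation groups of degree eleven: Sylow arithmetic. -/

set_option autoImplicit false
set_option linter.unusedSectionVars false
set_option linter.unusedVariables false

namespace Cfsg.Agent.H16.D11
open MulAction Subgroup Equiv

theorem half : ∀ b u v : ZMod 11, b - u = u → b - v = v → u = v := by decide +kernel

variable {α : Type*} [Fintype α] [DecidableEq α] {G : Subgroup (Perm α)} [IsPretransitive G α]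
  (hα : Fintype.card α = 11) (hA : ¬ alternatingGroup α ≤ G) {g y : G}
include hα

theorem sign2 (hg : orderOf g = 2) : Perm.sign (g : Perm α) = (-1) ^ ((11 - nfix α g) / 2) := by
  rw [Perm.sign_of_pow_two_eq_one (by rw [← hg, ← Subgroup.orderOf_coe, pow_orderOf_eq_one]), hα,
    ← Nat.card_eq_fintype_card]
  rfl

theorem nfix_mod (hp : (orderOf g).Prime) : nfix α g % orderOf g = 11 % orderOf g ∧ nfix α g < 11 := by
  have cn : Nat.card α = 11 := by rw [Nat.card_eq_fintype_card, hα]
  refine ⟨cn ▸ nfix_modEq_of_orderOf hp rfl, (cn ▸ nfix_le g).lt_of_ne fun e => ?_⟩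
  rw [eq_one_of_nfix_eq (e.trans cn.symm), orderOf_one] at hp
  exact Nat.not_prime_one hp

include hA

theorem nfix_le11 (hp : (orderOf g).Prime) (h8 : orderOf g ≤ 8) :
    nfix α g + 2 * orderOf g ≤ 11 := by
  by_contra! h
  have e := ncard_fix (g : Perm α)
  rw [nfix_eq_ncard] at h
  change _ < {y | (g : Perm α) y = y}.ncard + _ at h
  rw [← Subgroup.orderOf_coe] at hp h8 h
  have c := Perm.isCycle_of_prime_order hp (by omega)
  exact hA (S0713.result G (IsPreprimitive.of_prime_card
    (by rw [Nat.card_eq_fintype_card, hα]; norm_num)) hp (by omega) (by omega) c c.orderOf.symm g.2)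

theorem nfix5 (h : orderOf g = 5) : nfix α g = 1 := by
  have h1 := nfix_le11 hα hA (g := g) (by rw [h]; norm_num) (by omega)
  have h2 := nfix_mod hα (g := g) (by rw [h]; norm_num)
  rw [h] at h1 h2
  omega

theorem comm5 (h : orderOf y = 5) (hc : g * y = y * g) : nfix α g % 5 = 1 := by
  have h1 := nfix5 hα hA h
  have h2 := ncard_modEq_of_pelt (p := 5) (k := 1) (g := y) (by norm_num)
    (by rw [pow_one, ← h, pow_orderOf_eq_one]) (fixedBy α g) (Set.toFinite _) fun x hx => by
      rw [mem_fixedBy, ← mul_smul, hc, mul_smul, hx]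
  rw [nfix_eq_ncard] at h1 ⊢
  obtain ⟨a, ha⟩ := Set.ncard_eq_one.1 h1
  have h3 : y • a = a := ha.ge rfl
  have h4 : g • a = a := ha.le (show y • g • a = g • a by rw [← mul_smul, ← hc, mul_smul, h3])
  rw [show {x ∈ fixedBy α g | y • x = x} = {a} from Set.eq_singleton_iff_unique_mem.2
    ⟨⟨h4, h3⟩, fun x hx => ha.le hx.2⟩, Set.ncard_singleton] at h2
  exact h2

theorem ne95040 (he : G ≤ alternatingGroup α) : Nat.card G ≠ 95040 := fun h => by
  have : Fact (Nat.Prime 5) := ⟨by norm_num⟩
  obtain ⟨y, hy⟩ := exists_prime_orderOf_dvd_card' (G := G) 5 (by rw [h]; norm_num)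
  have cy : Nat.card (zpowers y) = 5 := by rw [Nat.card_zpowers, hy]
  obtain ⟨Q, hQ⟩ := (IsPGroup.of_card (p := 5) (n := 1) cy).exists_le_sylow
  have cQ : Nat.card Q = 5 := by
    obtain ⟨n, hn⟩ := IsPGroup.iff_card.1 Q.isPGroup'
    have d1 := card_dvd_of_le hQ
    have d2 := card_subgroup_dvd_card (Q : Subgroup G)
    rw [h, hn] at d2
    rw [cy, hn] at d1
    rcases n with _ | _ | n
    · omega
    · exact hn
    · exact absurd ((Dvd.intro_left (5 ^ n) (by ring) : 25 ∣ 5 ^ (n + 1 + 1)).trans d2) (by norm_num)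
  have := isCyclic_of_prime_card cQ
  have key := card_dvd_of_injective _
    (QuotientGroup.kerLift_injective (Q : Subgroup G).normalizerMonoidHom)
  rw [normalizerMonoidHom_ker, ← index, ← relIndex, IsCyclic.card_mulAut, cQ,
    Nat.totient_prime (by norm_num)] at key
  have c1 := H4.card_mul_relIndex (centralizer_le_normalizer ((Q : Subgroup G) : Set G))
  have c2 := card_mul_index (normalizer ((Q : Subgroup G) : Set G))
  have c3 := card_sylow_modEq_one 5 G
  rw [Q.card_eq_index_normalizer] at c3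
  have c4 : ∀ p : ℕ, p.Prime → p ∣ Nat.card (centralizer ((Q : Subgroup G) : Set G)) → p = 5 :=
    fun p hp hd => by
      have := Fact.mk hp
      obtain ⟨c, hc⟩ := exists_prime_orderOf_dvd_card' p hd
      rw [← Subgroup.orderOf_coe] at hc
      have h1 := comm5 hα hA hy (c.2 y (hQ (mem_zpowers y))).symm
      have h2 := nfix_mod hα (g := (c : G)) (by rwa [hc])
      have h3 := hd.trans (card_subgroup_dvd_card _)
      rw [h, show 95040 = 2 ^ 6 * 3 ^ 3 * 5 * 11 by norm_num] at h3
      simp only [hp.dvd_mul] at h3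
      rw [hc] at h2
      rcases h3 with ((h3 | h3) | h3) | h3
      · obtain rfl := (Nat.prime_dvd_prime_iff_eq hp Nat.prime_two).1 (hp.dvd_of_dvd_pow h3)
        have h4 := sign2 hα hc
        rw [Perm.mem_alternatingGroup.1 (he (c : G).2), show nfix α (c : G) = 1 by omega] at h4
        exact absurd h4 (by decide)
      · obtain rfl := (Nat.prime_dvd_prime_iff_eq hp Nat.prime_three).1 (hp.dvd_of_dvd_pow h3)
        omega
      · exact (Nat.prime_dvd_prime_iff_eq hp (by norm_num)).1 h3
      · obtain rfl := (Nat.prime_dvd_prime_iff_eq hp (by norm_num)).1 h3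
        omega
  have c5 : Nat.card (centralizer ((Q : Subgroup G) : Set G)) ∣ 5 :=
    (Nat.coprime_of_dvd (n := 19008) fun p hp hd hd' => by
      rw [c4 p hp hd] at hd'; omega).dvd_of_dvd_mul_left (by
        rw [show 19008 * 5 = 95040 by norm_num, ← h]; exact card_subgroup_dvd_card _)
  have c6 := c1 ▸ Nat.mul_dvd_mul c5 key
  rw [h] at c2
  change (normalizer ((Q : Subgroup G) : Set G)).index % 5 = 1 at c3
  generalize Nat.card (normalizer ((Q : Subgroup G) : Set G)) = m at c2 c6
  have := Nat.le_of_dvd (by norm_num) c6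
  interval_cases m <;> omega

theorem even (hG : ¬ Group.IsSolvable G) (he : G ≤ alternatingGroup α) :
    IsSimpleGroup G ∧ (Nat.card G = 660 ∨ Nat.card G = 7920) := by
  have : Fact (Nat.Prime 11) := ⟨by norm_num⟩
  have cn : Nat.card α = 11 := by rw [Nat.card_eq_fintype_card, hα]
  have h2 := (S0675.result (hα ▸ this.out) G).resolve_left hG
  obtain ⟨P⟩ : Nonempty (Sylow 11 G) := inferInstance
  have c := card_eq_prime_deg cn P
  have de := relIndex_normalizer_dvd_prime_deg cn P
  have m := card_sylow_modEq_one 11 G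
  have cP := card_sylow_prime_deg cn P
  have cN := H4.card_mul_relIndex (le_normalizer (H := (P : Subgroup G)))
  have sp := simple_of_prime_deg cn P
  obtain ⟨x⟩ : Nonempty (Fin 2 ↪ α) := Function.Embedding.nonempty_of_card_le (by simp; omega)
  have cx := card_eq_descFactorial_mul h2 x
  have d : ∀ p, p = 5 ∨ p = 7 → ¬ p ∣ Nat.card (stabilizer G x) := fun p hp h => by
    have : Fact p.Prime := ⟨by rcases hp with rfl | rfl <;> norm_num⟩
    obtain ⟨g, hg⟩ := exists_prime_orderOf_dvd_card' p h
    rw [← Subgroup.orderOf_coe] at hg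
    have h1 := nfix_le11 hα hA (g := g) (hg ▸ this.out) (by omega)
    have h2 := two_le_nfix (g := (g : G)) (x.injective.ne (show 0 ≠ 1 by decide))
      (congrArg (fun f : Fin 2 ↪ α => f 0) g.2) (congrArg (fun f : Fin 2 ↪ α => f 1) g.2)
    omega
  have dG := card_dvd_of_le he
  have : Nontrivial α := Fintype.one_lt_card_iff_nontrivial.1 (by omega)
  have cA := two_mul_nat_card_alternatingGroup (α := α)
  rw [Nat.card_perm, cn] at cA
  have n := ne95040 hα hA he
  obtain ⟨t, ht⟩ : ∃ t, Nat.card (stabilizer G x) = t := ⟨_, rfl⟩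
  replace cx : Nat.card G = 110 * t := cx.trans (by rw [cn]; exact congrArg _ ht)
  rw [ht] at d
  have dt : t ∣ 2 ^ 6 * 3 ^ 4 :=
    ((Nat.Prime.coprime_iff_not_dvd (by norm_num)).2 (d 5 (.inl rfl))).symm.dvd_of_dvd_mul_left
      (((Nat.Prime.coprime_iff_not_dvd (by norm_num)).2 (d 7 (.inr rfl))).symm.dvd_of_dvd_mul_left
        (Nat.dvd_of_mul_dvd_mul_left (show 0 < 110 by omega) (by
          rwa [cx, show Nat.card (alternatingGroup α) = 110 * (7 * (5 * (2 ^ 6 * 3 ^ 4))) by
            simp only [Nat.factorial] at cA; omega] at dG)))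
  have e1 : (P : Subgroup G).relIndex (normalizer ((P : Subgroup G) : Set G)) ≠ 1 := fun h => by
    rw [eq_top_of_normalizer_le_prime_deg cn P (relIndex_eq_one.1 h), card_top] at cP; omega
  have e2 : ¬ 2 ∣ Nat.card (normalizer ((P : Subgroup G) : Set G)) := fun h => by
    obtain ⟨s, hs⟩ := exists_prime_orderOf_dvd_card' 2 h
    rw [← Subgroup.orderOf_coe] at hs
    obtain ⟨-, e, -, -, h1⟩ := exists_coord_normalizer cn (P : Subgroup G) cP
    obtain ⟨a, b, h1⟩ := h1 s s.2
    have h2 := reflection_of_invol (by omega) hs h1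
    have h3 : nfix α (s : G) ≤ 1 := Finite.card_le_one_iff_subsingleton.2 ⟨fun u v => by
      obtain ⟨u, hu⟩ := u
      obtain ⟨v, hv⟩ := v
      obtain ⟨u, rfl⟩ := e.surjective u
      obtain ⟨v, rfl⟩ := e.surjective v
      obtain rfl := half b u v
        (e.injective ((h2 u).symm.trans hu)) (e.injective ((h2 v).symm.trans hv))
      rfl⟩
    have h4 := nfix_mod hα (g := (s : G)) (hs ▸ Nat.prime_two)
    have h5 := sign2 hα hs
    rw [hs] at h4
    rw [Perm.mem_alternatingGroup.1 (he (s : G).2), show nfix α (s : G) = 1 by omega] at h5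
    exact absurd h5 (by decide)
  rw [← cN, cP] at e2
  generalize (P : Subgroup G).relIndex (normalizer ((P : Subgroup G) : Set G)) = e at *
  generalize Nat.card (Sylow 11 G) = k at *
  have := Nat.le_of_dvd (by omega) de
  obtain rfl : e = 5 := by interval_cases e <;> omega
  rw [Nat.ModEq] at m
  obtain ⟨a, b, ha, hb, rfl⟩ := (Nat.dvd_mul).1 dt
  obtain ⟨i, hi, rfl⟩ := (Nat.dvd_prime_pow Nat.prime_two).1 ha
  obtain ⟨j, hj, rfl⟩ := (Nat.dvd_prime_pow Nat.prime_three).1 hb
  have : Nat.card G = 660 ∨ Nat.card G = 7920 := by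
    interval_cases i <;> interval_cases j <;> omega
  exact ⟨sp (by omega) (by norm_num), this⟩

end Cfsg.Agent.H16.D11
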