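import Mathlib
import Cfsg.Agent.H11.Im10

/-! Orthonormal frames of small unitary spaces: field lemmas and the reflection theorem. -/

set_option autoImplicit false
set_option linter.unusedSectionVars false
set_option linter.unusedVariables false

namespace Cfsg.Agent.H16.Fr

open Module H10 H11 H11.Im Cfsg.Geo

variable {F : Type*} [Field F] {σ : F →+* F} {q : ℕ} [Fintype F]

theorem sq3 {a b c : F} (ha : a ≠ 0) (hb : b ≠ 0) (hc : c ≠ 0) :
    IsSquare (a * b) ∨ IsSquare (a * c) ∨ IsSquare (b * c) := by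
  classical
  rw [← quadraticChar_one_iff_isSquare (mul_ne_zero ha hb), ← quadraticChar_one_iff_isSquare (mul_ne_zero ha hc),
    ← quadraticChar_one_iff_isSquare (mul_ne_zero hb hc), map_mul, map_mul, map_mul]
  rcases quadraticChar_dichotomy ha with e | e <;> rcases quadraticChar_dichotomy hb with e' | e' <;>
    rcases quadraticChar_dichotomy hc with e'' | e'' <;> simp [e, e', e'']

theorem univ4 : ∀ {i j k o : Fin 4}, i ≠ j → i ≠ k → i ≠ o → j ≠ k → j ≠ o → k ≠ o →
    (Finset.univ : Finset (Fin 4)) = {i, j, k, o} := by decide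

theorem sum4 {i j k o : Fin 4} (a : i ≠ j) (b : i ≠ k) (c : i ≠ o) (d : j ≠ k) (e : j ≠ o) (f : k ≠ o)
    (g : Fin 4 → F) : ∑ l, g l = g i + g j + g k + g o := by
  rw [univ4 a b c d e f]; simp [Finset.sum_insert, *, add_assoc]

theorem ex4 : ∀ i j k : Fin 4, ∃ o, i ≠ o ∧ j ≠ o ∧ k ≠ o := by decide

theorem ex3 : ∀ o : Fin 4, ∃ i j k, i ≠ j ∧ i ≠ k ∧ i ≠ o ∧ j ≠ k ∧ j ≠ o ∧ k ≠ o := by decide

section field
variable (hq : QConj σ q)
include hq

theorem ph {c c' s s' : F} (c0 : c ≠ 0) (hc : σ c = c) (c0' : c' ≠ 0) (hs : σ s = s) (hs' : σ s' = s') :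
    ∃ x y, σ x * x = 1 ∧ σ y * y = 1 ∧ x * c + σ (x * c) + s = y * c' + σ (y * c') + s' ∧
      x * c + σ (x * c) + s ≠ 0 := by
  classical
  let C := Finset.univ.filter fun z => σ z * z = 1
  have fib : ∀ {c : F} (s : F), c ≠ 0 → ∀ T ⊆ C,
      T.card ≤ 2 * (T.image fun x => x * c + σ (x * c) + s).card :=
    fun {c} s c0 T hT => Finset.card_le_mul_card_image _ _ fun v _ =>
      card_le_two_of_quad _ (a := c) (b := s - v) (c := σ c) c0 fun x hx => by
        obtain ⟨h1, h2⟩ := Finset.mem_filter.1 hx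
        have := (Finset.mem_filter.1 (hT h1)).2
        rw [map_mul] at h2
        linear_combination x * h2 - σ c * this
  let A := C.image fun x => x * c + σ (x * c) + s
  let A' := C.image fun x => x * c' + σ (x * c') + s'
  have cC : C.card = q + 1 := card_circle hq
  have m1 : (1 : F) ∈ C := by simp [C]
  have a1 := fib s' c0' C le_rfl
  have a2 := (fib s c0 _ (C.erase_subset 1)).trans (Nat.mul_le_mul_left 2 (Finset.card_le_card
    (t := A.erase (1 * c + σ (1 * c) + s)) fun v hv => by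
      obtain ⟨x, hx, rfl⟩ := Finset.mem_image.1 hv
      obtain ⟨x1, hx⟩ := Finset.mem_erase.1 hx
      refine Finset.mem_erase.2 ⟨fun e => x1 (sub_eq_zero.1 (pow_eq_zero_iff two_ne_zero |>.1
        (mul_left_cancel₀ c0 ?_))), Finset.mem_image_of_mem _ hx⟩
      have := (Finset.mem_filter.1 hx).2
      simp only [map_mul, hc, map_one] at e
      linear_combination x * e - c * this))
  have m2 := Finset.mem_image_of_mem (fun x => x * c + σ (x * c) + s) m1
  rw [Finset.card_erase_of_mem m1, Finset.card_erase_of_mem m2] at a2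
  have a3 : (A ∪ A').card ≤ q := by
    rw [← hq.card_fixed, Nat.card_eq_fintype_card, Fintype.card_subtype]
    refine Finset.card_le_card fun v hv => ?_
    rcases Finset.mem_union.1 hv with hv | hv <;> obtain ⟨x, -, rfl⟩ := Finset.mem_image.1 hv <;>
      simp only [Finset.mem_filter, Finset.mem_univ, true_and, map_add, hq.invol, hs, hs'] <;> ring
  have a4 := Finset.card_union_add_card_inter A A'
  have a5 := Finset.card_pos.2 ⟨_, m2⟩
  obtain ⟨v, hv, v0⟩ := Finset.exists_mem_ne (s := A ∩ A') (by simp only [A, A'] at *; omega) 0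
  obtain ⟨h1, h2⟩ := Finset.mem_inter.1 hv
  obtain ⟨x, hx, rfl⟩ := Finset.mem_image.1 h1
  obtain ⟨y, hy, e⟩ := Finset.mem_image.1 h2
  exact ⟨x, y, (Finset.mem_filter.1 hx).2, (Finset.mem_filter.1 hy).2, e.symm, v0⟩

theorem lemP {α β γ : F} (a0 : α ≠ 0) (b0 : β ≠ 0) (c0 : γ ≠ 0) (m0 : α + β + γ ≠ 0) (ha : σ α = α)
    (hb : σ β = β) (hc : σ γ = γ) : ∃ x y z, σ x * x = 1 ∧ σ y * y = 1 ∧ σ z * z = 1 ∧ x ≠ y ∧
      (x - 1) * α + (y - 1) * β + (z - 1) * γ = 0 := by
  obtain ⟨x, y, hx, hy, e, n⟩ := ph hq (c := α * β) (c' := -(γ * (α + β + γ))) (s := -(2 * (α * β)))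
    (s' := 2 * (γ * (α + β + γ))) (mul_ne_zero a0 b0) (by simp [ha, hb]) (neg_ne_zero.2 (mul_ne_zero c0 m0))
    (by simp [ha, hb, map_ofNat]) (by simp [ha, hb, hc, map_ofNat])
  simp only [map_mul, map_neg, map_add, ha, hb, hc] at e n
  obtain ⟨k, hk, e'⟩ : ∃ k, σ k * k = 1 ∧ k * (α * x + β) = (α + β + γ) * y - γ := by
    have N : σ (α * x + β) * (α * x + β) = σ ((α + β + γ) * y - γ) * ((α + β + γ) * y - γ) := by
      simp only [map_mul, map_sub, map_add, ha, hb, hc]
      linear_combination e + α * α * hx - (α + β + γ) ^ 2 * hy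
    by_cases z : α * x + β = 0
    · rw [z, mul_zero, eq_comm, mul_eq_zero, map_eq_zero, or_self] at N
      exact ⟨1, by simp, by rw [z, N, mul_zero]⟩
    · refine ⟨_ / _, ?_, div_mul_cancel₀ _ z⟩
      rw [map_div₀, div_mul_div_comm, ← N, div_self (mul_ne_zero ((map_ne_zero σ).2 z) z)]
  have u : σ (k * σ y) * (k * σ y) = 1 := by
    rw [map_mul, hq.invol]; linear_combination (y * σ y) * hk + hy
  refine ⟨x * (k * σ y), k * σ y, σ y, ?_, u, by rw [hq.invol, mul_comm, hy], fun z => n ?_, ?_⟩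
  · rw [map_mul σ x]; linear_combination (σ (k * σ y) * (k * σ y)) * hx + u
  · have : x = 1 := by linear_combination σ (k * σ y) * z + (1 - x) * u
    rw [this, map_one]; ring
  · linear_combination σ y * e' + (α + β + γ) * hy

theorem zeta (h3 : q ≠ 3) : ∃ z, σ z * z = 1 ∧ z ^ 4 ≠ 1 := by
  by_contra! hc
  have e := hq.card_normOne_pow 4
  rw [show (powMonoidHom 4 : normOne σ →* normOne σ).ker = ⊤ from top_le_iff.1 fun x _ =>
    Subtype.ext (Units.ext (hc x.1 x.2)), Subgroup.card_top, hq.card_normOne] at e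
  have d : q + 1 ∣ 4 := e.dvd.trans (Nat.gcd_dvd_left 4 (q + 1))
  have := Nat.le_of_dvd (by decide) d
  have := hq.two_le
  obtain rfl : q = 2 := by omega
  simp at d

theorem real {a b : F} (ha : a ≠ 0) (hb : b ≠ 0) (h : IsSquare (a * b)) :
    ∃ x, σ x * x = 1 ∧ σ (x * (a * σ b)) = x * (a * σ b) := by
  obtain ⟨r, hr⟩ := h
  have r0 : r ≠ 0 := by rintro rfl; simp_all
  have r1 := (map_ne_zero σ).2 r0
  have b1 := (map_ne_zero σ).2 hb
  refine ⟨σ r * b / (r * σ b), ?_, ?_⟩
  · simp only [map_div₀, map_mul, hq.invol]; field_simp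
  · rw [show σ r * b / (r * σ b) * (a * σ b) = σ r * r by field_simp; linear_combination hr, map_mul, hq.invol,
      mul_comm]

theorem span_top {S : AddSubgroup F} {N : F} (N0 : N ≠ 0) (h : ∀ z, σ z * z = 1 → (1 - z) / N ∈ S) (s : F) :
    s ∈ S := by
  obtain ⟨w, w1, w2⟩ := exists_zeta hq
  have w0 : 1 - w ≠ 0 := sub_ne_zero.2 (by rintro rfl; simp at w2)
  obtain ⟨z, z1, e⟩ := four_circles hq (fun _ => 1) (by simp) (by simp) (s * N / (1 - w))
  rw [show s = ∑ i, ((1 - z i * w) / N - (1 - z i) / N) by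
    simp only [mul_one] at e
    rw [show (fun i => (1 - z i * w) / N - (1 - z i) / N) = fun i => z i * ((1 - w) / N) from
      funext fun i => by ring, ← Finset.sum_mul, e]
    field_simp]
  exact sum_mem fun i _ => sub_mem (h _ (by rw [map_mul]; linear_combination (σ w * w) * z1 i + w1)) (h _ (z1 i))

end field

variable {V : Type*} [AddCommGroup V] [Module F V] [FiniteDimensional F V]
  {t : ℕ} {D : Fin t → Submodule F V} {p : Fin t → V →ₗ[F] V} {B : V →ₛₗ[σ] V →ₗ[F] F}

/-- An orthonormal frame. -/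
structure Fm (q : ℕ) (h : Cl 1 1 (trHom σ) B (fun x => B x x)) (D : Fin t → Submodule F V)
    (p : Fin t → V →ₗ[F] V) (e : Fin t → V) : Prop where
  hq : QConj σ q
  hH : IsHerm B
  d : Dec B (fun x => B x x) D p
  h1 : ∀ i, finrank F (D i) ≤ 1
  he : ∀ i, e i ∈ D i
  e1 : ∀ i, B (e i) (e i) = 1

namespace Fm
variable {h : Cl 1 1 (trHom σ) B (fun x => B x x)} {e : Fin t → V} (f : Fm q h D p e)
include f

theorem pe (i : Fin t) (v : V) : p i v = B (e i) v • e i := by
  simpa [f.e1] using p_line f.d (f.h1 i) (f.he i) (by simp [f.e1]) v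

theorem ne (i : Fin t) : e i ≠ 0 := fun c => by simpa [c] using f.e1 i

theorem ee (i j : Fin t) : B (e i) (e j) = if i = j then 1 else 0 := by
  split_ifs with c
  exacts [c ▸ f.e1 i, f.d.orth i j c _ (f.he i) _ (f.he j)]

theorem ext {v w : V} (k : ∀ l, B (e l) v = B (e l) w) : v = w := ext_p f.d fun l => by rw [f.pe, f.pe, k]

theorem sum (v w : V) : B v w = ∑ l, σ (B (e l) v) * B (e l) w := by
  rw [B_sum f.d]; simp [f.pe, f.e1, mul_comm]

theorem p0 {i : Fin t} {v : V} : p i v = 0 ↔ B (e i) v = 0 := by simp [f.pe, f.ne]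

theorem mem {i : Fin t} {v : V} : v ∈ D i ↔ ∀ l, l ≠ i → B (e l) v = 0 :=
  ⟨fun m l c => f.d.orth l i c _ (f.he l) _ m, fun k => f.d.mem_of fun l c => f.p0.2 (k l c)⟩

theorem dst {g : V ≃ₗ[F] V} (k : ∀ i, ∃ j, g (e i) ∈ D j) : g ∈ dstab D := f.d.mem_dstab fun i =>
  (k i).imp fun j m x hx => by
    obtain ⟨s, rfl⟩ := line_mem f.d (f.h1 i) (f.he i) (f.ne i) hx
    rw [map_smul]; exact (D j).smul_mem _ m

theorem app {z : F} (hz : σ z * z = 1) {a : V} (ha : B a a = 1) (v : V) :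
    rf h a (1 - z) v = v + ((z - 1) * B a v) • a := by
  have : Adm h a (1 - z) := by simpa [ha] using adm_herm (h := h) (a := a) (by simp [ha]) hz
  rw [this.apply]; module

theorem adm_sw {i j : Fin t} (c : i ≠ j) {x : F} (hx : σ x * x = 1) : Adm h (e i - x • e j) 1 := by
  simp only [Adm, trHom_apply, map_sub, map_smul, map_smulₛₗ, LinearMap.sub_apply, LinearMap.smul_apply, f.ee,
    c, c.symm, if_true, if_false, smul_eq_mul, map_one]
  linear_combination -hx

theorem sw {i j : Fin t} (c : i ≠ j) {x : F} (hx : σ x * x = 1) (v : V) (l : Fin t) :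
    B (e l) (rf h (e i - x • e j) 1 v) =
      if l = i then σ x * B (e j) v else if l = j then x * B (e i) v else B (e l) v := by
  rw [(f.adm_sw c hx).apply]
  simp only [map_sub, map_smul, map_smulₛₗ, LinearMap.sub_apply, LinearMap.smul_apply, f.ee, smul_eq_mul]
  split_ifs with a b b
  · exact absurd (a.symm.trans b) c
  · rw [a]; ring
  · rw [b]; linear_combination (-B (e j) v) * hx
  · ring

theorem sw_dst {i j : Fin t} (c : i ≠ j) {x : F} (hx : σ x * x = 1) : rf h (e i - x • e j) 1 ∈ dstab D :=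
  f.dst fun k => ⟨Equiv.swap i j k, f.mem.2 fun l hl => by
    rw [f.sw c hx]
    simp only [f.ee]
    rw [Ne, ← Equiv.swap_apply_eq_iff] at hl
    split_ifs <;> simp_all [Equiv.swap_apply_of_ne_of_ne]⟩

variable {M : Subgroup (V ≃ₗ[F] V)} (hM : M ≤ Isom B fun x => B x x) (hK : OvK h D M) {a : V} (ha : Lam h M a)
include hM hK

theorem lam_e (i : Fin t) : Lam h M (e i) :=
  ⟨by simp [f.e1], fun c => hK _ (rf_mem_isom h _ c) (rf_dstab h f.d (f.he i) c)⟩

include ha

theorem tang {i j k : Fin t} (hij : i ≠ j) (hik : i ≠ k) (hjk : j ≠ k) {x y z : F} (hx : σ x * x = 1)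
    (hy : σ y * y = 1) (hz : σ z * z = 1) (hs : (x - 1) * (σ (B (e i) a) * B (e i) a) +
      (y - 1) * (σ (B (e j) a) * B (e j) a) + (z - 1) * (σ (B (e k) a) * B (e k) a) = 0) :
    ∃ u, B u u = 0 ∧ a ∈ h.Arm M u ∧ B (e i) u = (x - 1) * B (e i) a ∧ B (e j) u = (y - 1) * B (e j) a ∧
      B (e k) u = (z - 1) * B (e k) a ∧ ∀ l, l ≠ i → l ≠ j → l ≠ k → B (e l) u = 0 := by
  obtain ⟨u, hu⟩ : ∃ u, u = ((x - 1) * B (e i) a) • e i + ((y - 1) * B (e j) a) • e j +
    ((z - 1) * B (e k) a) • e k := ⟨_, rfl⟩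
  have L := f.lam_e hM hK
  have m := mul_mem (mul_mem ((L i).2 (1 - x)) ((L j).2 (1 - y))) ((L k).2 (1 - z))
  have e0 : (rf h (e i) (1 - x) * rf h (e j) (1 - y) * rf h (e k) (1 - z)) a = a + u := by
    simp only [LinearEquiv.mul_apply, f.app hx (f.e1 _), f.app hy (f.e1 _), f.app hz (f.e1 _), hu, map_add, map_smul,
      f.ee, hij, hik, hjk, if_false, smul_eq_mul, mul_zero, zero_smul, add_zero]
    abel
  have b1 : B a u = 0 := by
    simp only [hu, map_add, map_smul, symm1 h (e _) a, smul_eq_mul]; linear_combination hs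
  have b2 := h.refl b1
  have b3 : B u u = 0 := by
    have := (hM m).1 a a
    simpa [e0, b1, b2] using this
  refine ⟨u, b3, fun s => span_top f.hq (S := (h.Ar M u).comap
    (LinearMap.toSpanSingleton F V a).toAddMonoidHom) ha.1 (fun w hw => (adm_herm ha.1 hw).mem_ar b3 b2
      (mul_mem (e0 ▸ (ha.map hM m).2 _) (inv_mem (ha.2 _)))) s, ?_, ?_, ?_, fun l _ _ _ => ?_⟩ <;>
    simp [hu, f.ee, *, hij.symm, hik.symm, hjk.symm]

theorem two (ht : 3 ≤ t) {i j k : Fin t} (hij : i ≠ j) (hik : i ≠ k) (hjk : j ≠ k) (hi : B (e i) a ≠ 0)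
    (hk : B (e k) a ≠ 0) (s : σ (B (e i) a) * B (e i) a + σ (B (e j) a) * B (e j) a = 0) : h.Om ≤ M := by
  obtain ⟨x, hx, x1⟩ := exists_zeta f.hq
  obtain ⟨u, u0, m, u1, -, u3, u4⟩ := f.tang hM hK ha hij hik hjk hx hx (z := 1) (by simp)
    (by linear_combination (x - 1) * s)
  refine (gen_herm f.hq f.hH h f.d).full f.d hK hM (fun c => ?_) u0 (h.ar_of_arm m) (o := k)
    (f.p0.2 (by simpa using u3)) (mt f.p0.1 hk) (I := {i, j}) (fun l hl => ?_) (by simp [hik.symm, hjk.symm])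
    (by rw [Finset.card_pair hij]; omega)
  · rw [c, map_zero, eq_comm, mul_eq_zero, sub_eq_zero] at u1
    exact x1 (by simp [u1.resolve_right hi])
  · by_contra c
    simp only [Finset.mem_insert, Finset.mem_singleton, not_or] at c
    by_cases c' : l = k
    · exact hl (f.p0.2 (by simpa [c'] using u3))
    · exact hl (f.p0.2 (u4 l c.1 c.2 c'))

end Fm

namespace Fm
variable {D : Fin 4 → Submodule F V} {p : Fin 4 → V →ₗ[F] V}
  {h : Cl 1 1 (trHom σ) B (fun x => B x x)} {e : Fin 4 → V} (f : Fm q h D p e)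
include f

theorem rank : finrank F V = 4 := by
  have := finrank_eq_mul f.d 0
  have := f.h1 0
  have := Submodule.one_le_finrank_iff.2 (f.d.ne 0)
  omega

variable {M : Subgroup (V ≃ₗ[F] V)} (hM : M ≤ Isom B fun x => B x x) (hK : OvK h D M) {a : V} (ha : Lam h M a)
include hM hK ha

theorem r1 (a0 : ∀ l, B (e l) a ≠ 0) {o : Fin 4} (ho : σ (B (e o) a) * B (e o) a ≠ B a a) : h.Om ≤ M := by
  obtain ⟨i, j, k, ij, ik, io, jk, jo, ko⟩ := ex3 o
  have n0 : ∀ l, σ (B (e l) a) * B (e l) a ≠ 0 := fun l => mul_ne_zero ((map_ne_zero σ).2 (a0 l)) (a0 l)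
  have nr : ∀ l, σ (σ (B (e l) a) * B (e l) a) = σ (B (e l) a) * B (e l) a := fun l => by
    rw [map_mul, h.invol, mul_comm]
  obtain ⟨x, y, z, hx, hy, hz, xy, s⟩ := lemP f.hq (n0 i) (n0 j) (n0 k) (fun c => ho (by
    rw [f.sum a a, sum4 ij ik io jk jo ko, c, zero_add])) (nr i) (nr j) (nr k)
  obtain ⟨u, u0, m, u1, u2, -, u4⟩ := f.tang hM hK ha ij ik jk hx hy hz s
  have uo := u4 o io.symm jo.symm ko.symm
  have G := gen_herm f.hq f.hH h f.d
  have n : u ≠ 0 := fun c => xy (by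
    rw [c, map_zero, eq_comm, mul_eq_zero, sub_eq_zero] at u1 u2
    rw [u1.resolve_right (a0 i), u2.resolve_right (a0 j)])
  have eo := G.blocks f.d hK hM (h.ar_of_arm m) (f.p0.2 uo) (mt f.p0.1 (a0 o)) o (f.p0.2 uo) (f.he o)
  refine G.om_le_of_full f.d hK hM n (h.full_of_ar u0 (fun y hy => h.ar_of_arm (by_contra fun c => ?_))
    fun c hc => center_of h G.tau u0 eo eo (by simp [f.e1]) hc)
  have ua := h.ar_perp (h.ar_of_arm m)
  have l0 := finrank_add_le h (Cl.nondegOn_top h.sep) (Z := Submodule.span F {u}) (W := h.Arm M u ⊔ .span F {y})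
    le_top le_top (fun z hz w hw => by
      obtain ⟨s, rfl⟩ := Submodule.mem_span_singleton.1 hz
      have : _ ≤ LinearMap.ker (B u) := sup_le (fun w hw => h.ar_perp (h.ar_of_arm (M := M) hw))
        ((Submodule.span_singleton_le_iff_mem y _).2 hy)
      simp [LinearMap.mem_ker.1 (this hw)])
  rw [finrank_top, f.rank, finrank_span_singleton n] at l0
  have l1 := Submodule.finrank_lt_finrank_of_lt (s := h.Arm M u) (t := h.Arm M u ⊔ .span F {y})
    (SetLike.lt_iff_le_and_exists.2 ⟨le_sup_left, y, Submodule.mem_sup_right (Submodule.mem_span_singleton_self y), c⟩)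
  have l2 := Submodule.finrank_lt_finrank_of_lt (s := h.Arm M u ⊓ LinearMap.ker (B (e o))) (t := h.Arm M u)
    (SetLike.lt_iff_le_and_exists.2 ⟨inf_le_left, _, eo, fun c => by simpa [f.e1] using c.2⟩)
  have l3 := Submodule.finrank_lt_finrank_of_lt (s := h.Arm M u ⊓ LinearMap.ker (B (e o)) ⊓ LinearMap.ker (B a))
    (t := h.Arm M u ⊓ LinearMap.ker (B (e o))) (SetLike.lt_iff_le_and_exists.2 ⟨inf_le_left, a - B (e o) a • e o,
      ⟨sub_mem m (Submodule.smul_mem _ _ eo), by simp [f.e1]⟩, fun c => ho (by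
        have := c.2
        simp only [SetLike.mem_coe, LinearMap.mem_ker, map_sub, map_smul, symm1 h (e o) a, smul_eq_mul] at this
        linear_combination -this)⟩)
  have l4 := Submodule.one_le_finrank_iff.2 ((Submodule.ne_bot_iff
    (h.Arm M u ⊓ LinearMap.ker (B (e o)) ⊓ LinearMap.ker (B a))).2 ⟨u, ⟨⟨h.self_mem_arm u0, uo⟩, h.refl ua⟩, n⟩)
  omega

theorem full4 (a0 : ∀ l, B (e l) a ≠ 0) : h.Om ≤ M := by
  by_contra hc
  have n : ∀ l, σ (B (e l) a) * B (e l) a = B a a := fun l => by_contra fun c => hc (f.r1 hM hK ha a0 c)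
  have N0 : B a a ≠ 0 := ha.1
  have three : (3 : F) = 0 := mul_right_cancel₀ N0 (by
    have := f.sum a a
    simp only [n, Fin.sum_univ_four] at this
    linear_combination -this)
  obtain ⟨z, hz, z1⟩ := exists_zeta f.hq
  have z2 : 1 - z ≠ 0 := sub_ne_zero.2 (by rintro rfl; simp at z1)
  have b := (adm_herm (h := h) N0 hz).apply (e 0)
  have bl : ∀ l, B (e l) (rf h a ((1 - z) / B a a) (e 0)) =
      (if l = 0 then 1 else 0) - (1 - z) / B a a * σ (B (e 0) a) * B (e l) a := fun l => by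
    rw [b, map_sub, map_smul, f.ee, symm1 h (e 0) a, smul_eq_mul]
  refine hc (f.r1 hM hK ((f.lam_e hM hK 0).map hM (ha.2 ((1 - z) / B a a))) (fun l => ?_) (o := 1) ?_)
  · rw [bl]
    split_ifs with c
    · rw [c, mul_assoc, n, div_mul_cancel₀ _ N0, sub_sub_cancel]
      rintro rfl; simp at hz
    · simp [z2, N0, a0]
  · rw [(rf_mem_isom h a _).1, f.e1, bl]
    simp only [one_ne_zero, if_false, zero_sub, map_neg, map_mul, map_div₀, map_sub, map_one, h.invol,
      ← symm1 h a a]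
    intro c
    have c' : (1 - σ z) * (1 - z) = 1 := by
      have n0 := n 0
      have n1 := n 1
      field_simp at c
      apply mul_right_cancel₀ (pow_ne_zero 2 N0)
      linear_combination c - (1 - σ z) * (1 - z) * ((σ (B (e 1) a) * B (e 1) a) * n0 + B a a * n1)
    have : z = -1 := eq_neg_of_add_eq_zero_left (pow_eq_zero_iff two_ne_zero |>.1 (by
      linear_combination (-z) * c' + (z - 1) * hz + z * three))
    simp [this] at z1

theorem three {i j k : Fin 4} (ij : i ≠ j) (ik : i ≠ k) (jk : j ≠ k) (hi : B (e i) a ≠ 0) (hj : B (e j) a ≠ 0)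
    (hk : B (e k) a ≠ 0) : h.Om ≤ M := by
  classical
  obtain ⟨o, io, jo, ko⟩ := ex4 i j k
  have cov : ∀ l, l = i ∨ l = j ∨ l = k ∨ l = o := fun l => by
    simpa using (univ4 ij ik io jk jo ko).le (Finset.mem_univ l)
  by_cases ho : B (e o) a = 0
  swap
  · exact f.full4 hM hK ha fun l => by rcases cov l with rfl | rfl | rfl | rfl <;> assumption
  by_cases s : σ (B (e i) a) * B (e i) a + σ (B (e j) a) * B (e j) a = 0
  · exact f.two hM hK ha (by decide) ij ik jk hi hk s
  have w := f.sw ko (x := 1) (by simp) a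
  have L := ha.map hM (hK _ (rf_mem_isom h _ _) (f.sw_dst ko (x := 1) (by simp)))
  generalize rf h (e k - (1 : F) • e o) 1 a = b at w L
  have ba : B b a = σ (B (e i) a) * B (e i) a + σ (B (e j) a) * B (e j) a := by
    rw [f.sum, sum4 ij ik io jk jo ko]; simp [w, *, ko.symm]
  have N0 : B b b ≠ 0 := L.1
  obtain ⟨z, hz, z1⟩ := exists_circle f.hq {1, 1 - B b b / B b a} (Finset.card_le_two.trans f.hq.two_le)
  simp only [Finset.mem_insert, Finset.mem_singleton, not_or] at z1
  have c1 : (1 - z) / B b b * B b a ≠ 0 := by simp [N0, ba, s, sub_eq_zero, Ne.symm z1.1]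
  have c2 : 1 - (1 - z) / B b b * B b a ≠ 0 := fun c => z1.2 (by
    rw [← ba] at s
    field_simp at c ⊢
    linear_combination c)
  refine f.full4 hM hK (ha.map hM (L.2 ((1 - z) / B b b))) fun l => ?_
  rw [(adm_herm (h := h) N0 hz).apply, map_sub, map_smul, w, smul_eq_mul]
  rcases cov l with rfl | rfl | rfl | rfl
  · rw [if_neg ik, if_neg io, ← one_sub_mul]; exact mul_ne_zero c2 hi
  · rw [if_neg jk, if_neg jo, ← one_sub_mul]; exact mul_ne_zero c2 hj
  · simpa [ho] using hk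
  · rw [if_neg ko.symm, if_pos rfl, ho, zero_sub, one_mul]; exact neg_ne_zero.2 (mul_ne_zero c1 hk)

omit hM hK ha in
theorem rt4 : RT h D := fun M hM hK a ha out => by
  classical
  have k : ∀ a, Lam h M a → 2 < (Finset.univ.filter (p · a ≠ 0)).card → h.Om ≤ M := fun a ha c => by
    obtain ⟨i, hi, j, hj, k, hk, ij, ik, jk⟩ := Finset.two_lt_card.1 c
    simp only [Finset.mem_filter, Finset.mem_univ, true_and, Ne, f.p0] at hi hj hk
    exact f.three hM hK ha ij ik jk hi hj hk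
  obtain ⟨i, j, ij, hi, hj⟩ := f.d.exists_two 0 out
  have c : 2 ≤ (Finset.univ.filter (p · a ≠ 0)).card := Finset.one_lt_card.2 ⟨i, by simpa, j, by simpa, ij⟩
  rcases c.eq_or_lt with c' | c'
  · obtain ⟨b, hb, l⟩ := (gen_herm f.hq f.hH h f.d).enlarge f.d hK hM ha (by convert c) (by
      convert (show 2 * (Finset.univ.filter (p · a ≠ 0)).card ≤ 4 + 1 by omega))
    exact k b hb (by convert c'.trans_lt (by convert l))
  · exact k a ha c'

end Fm

end Cfsg.Agent.H16.Fr
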