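import Mathlib
import Cfsg.Agent.H16.Fr1

/-! The stabiliser of an orthonormal frame is maximal in `SU₄(q)`, `q ≠ 3`. -/

set_option autoImplicit false
set_option linter.unusedSectionVars false
set_option linter.unusedVariables false

namespace Cfsg.Agent.H16.Fr

open Module H10 H11 H11.Im Cfsg.Geo

variable {F : Type*} [Field F] {σ : F →+* F} {q : ℕ} [Fintype F]
  {V : Type*} [AddCommGroup V] [Module F V] [FiniteDimensional F V] {B : V →ₛₗ[σ] V →ₗ[F] F}
  {h : Cl 1 1 (trHom σ) B (fun x => B x x)}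

/-- A diagonal element of determinant one. -/
noncomputable def T (h : Cl 1 1 (trHom σ) B (fun x => B x x)) (a b : V) (z : F) : V ≃ₗ[F] V :=
  rf h a (1 - z) * rf h b (1 - σ z)

namespace Fm

section
variable {t : ℕ} {D : Fin t → Submodule F V} {p : Fin t → V →ₗ[F] V} {e : Fin t → V} (f : Fm q h D p e)
include f

theorem T_app {i m : Fin t} (c : i ≠ m) {z : F} (hz : σ z * z = 1) (v : V) :
    T h (e i) (e m) z v = v + ((z - 1) * B (e i) v) • e i + ((σ z - 1) * B (e m) v) • e m := by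
  simp only [T, LinearEquiv.mul_apply, f.app hz (f.e1 _), f.app (z := σ z) (by rw [h.invol, mul_comm, hz]) (f.e1 _),
    map_add, map_smul, f.ee, c, if_false, smul_zero, add_zero]
  abel

theorem T_co {i m : Fin t} (c : i ≠ m) {z : F} (hz : σ z * z = 1) (v : V) (l : Fin t) :
    B (e l) (T h (e i) (e m) z v) = (if l = i then z else if l = m then σ z else 1) * B (e l) v := by
  simp only [f.T_app c hz, map_add, map_smul, f.ee, smul_eq_mul]
  split_ifs with a b b
  · exact absurd (a.symm.trans b) c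
  all_goals (try subst a); (try subst b); ring

theorem T_val {i m : Fin t} (c : i ≠ m) {z : F} (hz : σ z * z = 1) (v : V) : B v (T h (e i) (e m) z v) =
    B v v + (z - 1) * (σ (B (e i) v) * B (e i) v) + (σ z - 1) * (σ (B (e m) v) * B (e m) v) := by
  simp only [f.T_app c hz, map_add, map_smul, symm1 h (e _) v, smul_eq_mul]; ring

theorem dich {g k : V ≃ₗ[F] V} (hg : g ∈ Isom B fun x => B x x) (m : g⁻¹ * k * g ∈ dstab D) (a : Fin t) :
    (∃ c : F, k (g (e a)) = c • g (e a)) ∨ B (g (e a)) (k (g (e a))) = 0 := by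
  obtain ⟨π, hπ⟩ := dstab_perm m
  have := hπ a _ (f.he a)
  by_cases c : a = π a
  · obtain ⟨s, hs⟩ := line_mem f.d (f.h1 _) (c ▸ f.he a) (f.ne a) this
    exact .inl ⟨s, by rw [← map_smul, hs]; simp [app_inv]⟩
  · exact .inr ((isom_inv hg _ _).symm.trans (f.mem.1 this a c))

theorem row {g : V ≃ₗ[F] V} (hg : g ∈ Isom B fun x => B x x) (i : Fin t) :
    ∑ a, σ (B (e i) (g (e a))) * B (e i) (g (e a)) = 1 := by
  rw [← f.e1 i, ← (inv_mem hg).1, f.sum]
  exact Finset.sum_congr rfl fun a _ => by rw [isom_inv hg, symm1 h (e i), h.invol, mul_comm]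

variable {M : Subgroup (V ≃ₗ[F] V)} (hO : Ov h D M)
include hO

theorem T_mem (i m : Fin t) {z : F} (hz : σ z * z = 1) : T h (e i) (e m) z ∈ M :=
  hO _ (by simpa [f.e1, T] using pair_om f.hH h (a := e i) (b := e m) (by simp [f.e1]) (by simp [f.e1]) hz)
    (mul_mem (rf_dstab h f.d (f.he i) _) (rf_dstab h f.d (f.he m) _))

theorem sw_mem {i j k l : Fin t} (c : i ≠ j) (c' : k ≠ l) {x y : F} (hx : σ x * x = 1) (hy : σ y * y = 1) :
    rf h (e i - x • e j) 1 * rf h (e k - y • e l) 1 ∈ M := by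
  have d : ∀ {i j x}, i ≠ j → σ x * x = 1 → LinearMap.det (rf h (e i - x • e j) 1 : V →ₗ[F] V) = -1 :=
    fun c hx => by
      rw [det_rf (f.adm_sw c hx)]
      simp only [map_sub, map_smul, map_smulₛₗ, LinearMap.sub_apply, LinearMap.smul_apply, f.ee,
        c, c.symm, if_true, if_false, smul_eq_mul]
      linear_combination -hx
  refine hO _ ((mem_om_herm f.hH h).2 ⟨(mul_mem (rf_mem_isom h _ _) (rf_mem_isom h _ _)).1, ?_⟩)
    (mul_mem (f.sw_dst c hx) (f.sw_dst c' hy))
  rw [LinearEquiv.coe_toLinearMap_mul, map_mul, d c hx, d c' hy]; simp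

theorem st (R : RT h D) (ht : 2 ≤ t) (hM : M ≤ h.Om) (hc : ¬ h.Om ≤ M) {x : V ≃ₗ[F] V} (hx : x ∈ M) {j l : Fin t}
    (m : x (e j) ∈ D l) : x ∈ dstab D :=
  star_to f.d hO (hM.trans h.om_le_isom) (fun x hx i v hv q e' => by_contra fun hx' => hc (hO.np f.d hM R
    (fun i => conn_herm f.hq f.hH h (f.d.nd i) (Submodule.one_le_finrank_iff.mpr (f.d.ne i))
      fun c => by have := f.h1 i; omega) (X := Submodule.span F {v})
    (by simpa using hv) (adj_herm f.hH h (Submodule.mem_span_singleton_self _) q) hx (fun y hy => by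
      obtain ⟨s, rfl⟩ := Submodule.mem_span_singleton.mp hy
      rwa [map_smul, e']) hx')) ht (adj_blk f.hq f.hH h f.d) hx (f.he j) (by simp [f.e1]) m

end

variable {D : Fin 4 → Submodule F V} {p : Fin 4 → V →ₗ[F] V} {e : Fin 4 → V} (f : Fm q h D p e)
  {M : Subgroup (V ≃ₗ[F] V)} (hO : Ov h D M) (hM : M ≤ h.Om) (hc : ¬ h.Om ≤ M) {ζ : F} (z1 : σ ζ * ζ = 1)
  (z4 : ζ ^ 4 ≠ 1) {g : V ≃ₗ[F] V} (hg : g ∈ M) (hg' : g ∉ dstab D)
include f hO hM hc z1 z4 hg hg'

theorem c1 {i j k : Fin 4} (hi : B (e i) (g (e j)) = 0) (hk : B (e k) (g (e j)) ≠ 0) :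
    2 * (σ (B (e k) (g (e j))) * B (e k) (g (e j))) = 1 ∧ ∃ k', ∀ l, l ≠ k → l ≠ k' → B (e l) (g (e j)) = 0 := by
  have gI := h.om_le_isom (hM hg)
  have S := @f.st _ _ _ _ _ _ _ _ _ _ _ _ _ _ _ _ hO f.rt4 (by decide) hM hc
  have z0 : ζ ≠ 0 := by rintro rfl; simp at z1
  have m1 : σ (σ ζ ^ 4) * σ ζ ^ 4 = 1 := by rw [map_pow, h.invol, ← mul_pow, mul_comm, z1, one_pow]
  have m2 : 1 - σ ζ ^ 4 ≠ 0 := fun c => z4 (by rw [map_pow, h.invol] at m1; linear_combination m1 + ζ ^ 4 * c)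
  let s := LinearEquiv.smulOfNeZero F V ζ z0
  have sa : ∀ v, s v = ζ • v := fun v => rfl
  have m : s * rf h (e j) (1 - σ ζ ^ 4) ∈ M := by
    refine hO _ ((mem_om_herm f.hH h).2 ⟨fun x y => ?_, ?_⟩) (mul_mem (f.dst fun i => ⟨i,
      (D i).smul_mem _ (f.he i)⟩) (rf_dstab h f.d (f.he j) _))
    · simp only [LinearEquiv.mul_apply, sa, map_smul, map_smulₛₗ, LinearMap.smul_apply, (rf_mem_isom h _ _).1,
        smul_eq_mul]
      linear_combination B x y * z1
    · rw [LinearEquiv.coe_toLinearMap_mul, map_mul, det_rf (by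
        simpa [f.e1] using adm_herm (h := h) (a := e j) (by simp [f.e1]) m1),
        show (s : V →ₗ[F] V) = ζ • LinearMap.id from LinearMap.ext sa, LinearMap.det_smul, f.rank, f.e1]
      rw [map_pow, h.invol] at m1
      simpa using m1
  have m' := mul_mem (mul_mem hg m) (inv_mem hg)
  have xa : ∀ v l, B (e l) ((g * (s * rf h (e j) (1 - σ ζ ^ 4)) * g⁻¹) (e v)) = ζ * ((if l = v then 1 else 0) -
      (1 - σ ζ ^ 4) * σ (B (e v) (g (e j))) * B (e l) (g (e j))) := fun v l => by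
    simp only [LinearEquiv.mul_apply, sa, f.app m1 (f.e1 j), map_smul, map_add, app_inv, isom_inv gI, f.ee,
      symm1 h (e v), smul_eq_mul]
    ring
  obtain ⟨π, hπ⟩ := dstab_perm (S m' (j := i) (l := i) (f.mem.2 fun l c => by rw [xa]; simp [c, hi]))
  have k1 := fun l c => (xa k l).symm.trans (f.mem.1 (hπ k _ (f.he k)) l c)
  simp only [mul_eq_zero, z0, false_or] at k1
  have k2 : ∀ l, l ≠ k → l ≠ π k → B (e l) (g (e j)) = 0 := fun l a b => by simpa [a, m2, hk] using k1 l b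
  refine ⟨?_, _, k2⟩
  have k3 := k1 k fun c => hg' (S hg (f.mem.2 fun l a => k2 l a (c ▸ a)))
  have k4 := congrArg σ k3
  simp only [if_true, map_sub, map_mul, map_one, map_pow, h.invol, map_zero] at k3 k4 m1
  have n : σ (B (e k) (g (e j))) * B (e k) (g (e j)) ≠ 0 := mul_ne_zero ((map_ne_zero σ).2 hk) hk
  have k5 : σ ζ ^ 4 = ζ ^ 4 := mul_right_cancel₀ n (by linear_combination k3 - k4)
  have k6 : σ ζ ^ 4 = -1 := (mul_self_eq_one_iff.1 (by rw [← m1, ← k5])).resolve_left fun c => m2 (by simp [c])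
  rw [k6] at k3
  linear_combination -k3

theorem nz (i j : Fin 4) : B (e i) (g (e j)) ≠ 0 := fun hi => by
  have gI := h.om_le_isom (hM hg)
  have S := @f.st _ _ _ _ _ _ _ _ _ _ _ _ _ _ _ _ hO f.rt4 (by decide) hM hc
  have ex : ∀ v : V, v ≠ 0 → ∃ k, B (e k) v ≠ 0 := fun v c => by
    by_contra! z; exact c (f.ext fun l => by simp [z])
  obtain ⟨k, hk⟩ := ex (g (e j)) (by simp [f.ne])
  obtain ⟨-, k', h1⟩ := f.c1 hO hM hc z1 z4 hg hg' hi hk
  obtain ⟨m, km, km', im⟩ := ex4 k k' i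
  have hm := h1 m km.symm km'.symm
  have y : g⁻¹ * T h (e i) (e m) ζ * g ∈ dstab D := S (mul_mem (mul_mem (inv_mem hg) (f.T_mem hO i m z1)) hg)
    (j := j) (l := j) (by simpa [f.T_app im z1, hi, hm, inv_app] using f.he j)
  obtain ⟨a, ha⟩ := ex (g⁻¹ (e i)) (by simp [f.ne])
  have h2 := (f.c1 hO hM hc z1 z4 (inv_mem hg) (by simpa using hg') (i := j)
    (by rw [isom_inv gI, h.refl hi]) ha).1
  rw [isom_inv gI, symm1 h (e i)] at ha h2
  rw [h.invol] at h2
  have ha' : B (e i) (g (e a)) ≠ 0 := fun c => by simp [c] at ha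
  have zz : σ ζ ≠ ζ := fun c => z4 (by rw [c] at z1; linear_combination (ζ ^ 2 + 1) * z1)
  rcases f.dich gI y a with ⟨c, hc'⟩ | hc'
  · have k : ∀ l, (if l = i then ζ else if l = m then σ ζ else 1) * B (e l) (g (e a)) = c * B (e l) (g (e a)) :=
      fun l => by rw [← f.T_co im z1, hc', map_smul, smul_eq_mul]
    have k0 := k i
    rw [if_pos rfl, mul_left_inj' ha'] at k0
    refine hg' (S hg (j := a) (l := i) (f.mem.2 fun l b => ?_))
    have := k l
    rw [if_neg b, ← k0, mul_eq_mul_right_iff] at this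
    refine this.resolve_left fun r => ?_
    split_ifs at r
    exacts [zz r, zz (by rw [← r, map_one])]
  · rw [f.T_val im z1, gI.1, f.e1] at hc'
    have k := congrArg σ hc'
    simp only [map_add, map_mul, map_sub, map_one, map_zero, h.invol] at k
    have k1 : σ (B (e m) (g (e a))) * B (e m) (g (e a)) = σ (B (e i) (g (e a))) * B (e i) (g (e a)) :=
      mul_left_cancel₀ (sub_ne_zero.2 zz) (by linear_combination hc' - k)
    have k2 : ζ + σ ζ = 0 := by rw [k1] at hc'; linear_combination 2 * hc' - (ζ + σ ζ - 2) * h2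
    exact z4 (by linear_combination (ζ ^ 2 - 1) * (ζ * k2 - z1))

theorem t0 {i m : Fin 4} (im : i ≠ m) {z : F} (hz : σ z * z = 1) (y : g⁻¹ * T h (e i) (e m) z * g ∈ dstab D) :
    z = 1 ∨ z = -1 := by
  have gI := h.om_le_isom (hM hg)
  have n := f.nz hO hM hc z1 z4 hg hg'
  refine or_iff_not_imp_left.2 fun c => ?_
  have k : ∀ a, 1 + (z - 1) * (σ (B (e i) (g (e a))) * B (e i) (g (e a))) +
      (σ z - 1) * (σ (B (e m) (g (e a))) * B (e m) (g (e a))) = 0 := fun a => by
    rcases f.dich gI y a with ⟨s, hs⟩ | hs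
    · obtain ⟨o, io, mo, -⟩ := ex4 i m m
      have k0 := f.T_co im hz (g (e a)) i
      have k1 := f.T_co im hz (g (e a)) o
      rw [hs, map_smul, smul_eq_mul, mul_left_inj' (n _ _)] at k0 k1
      simp_all [io.symm, mo.symm]
    · rwa [f.T_val im hz, gI.1, f.e1] at hs
  have := Finset.sum_congr rfl fun a (_ : a ∈ Finset.univ) => k a
  simp only [Finset.sum_add_distrib, ← Finset.mul_sum, f.row gI] at this
  simp only [Finset.sum_const, Finset.card_univ, Fintype.card_fin, smul_zero, nsmul_eq_mul, Nat.cast_ofNat] at this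
  exact eq_neg_of_add_eq_zero_left (pow_eq_zero_iff two_ne_zero |>.1 (by linear_combination z * this - hz))

theorem kk {i j k l : Fin 4} (ij : i ≠ j) (ik : i ≠ k) (il : i ≠ l) (jk : j ≠ k) (jl : j ≠ l) (kl : k ≠ l) {x y c c' : F}
    (hx : σ x * x = 1) (hy : σ y * y = 1) (ec : c = B (e i) (g (e 0)) * σ (B (e j) (g (e 0))))
    (ec' : c' = B (e k) (g (e 0)) * σ (B (e l) (g (e 0)))) (s : x * c + σ (x * c) + (y * c' + σ (y * c')) = 0) :
    σ (x * c) = x * c ∨ σ (x * c) = -(x * c) := by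
  have gI := h.om_le_isom (hM hg)
  have n := f.nz hO hM hc z1 z4 hg hg'
  have c0 : c ≠ 0 := ec ▸ mul_ne_zero (n _ _) ((map_ne_zero σ).2 (n _ _))
  have x0 : x ≠ 0 := by rintro rfl; simp at hx
  have key : ∀ x, σ x * x = 1 → x * c + σ (x * c) + (y * c' + σ (y * c')) = 0 →
      g⁻¹ * (rf h (e i - x • e j) 1 * rf h (e k - y • e l) 1) * g ∈ dstab D := fun x hx s => by_contra fun r =>
    f.nz hO hM hc z1 z4 (mul_mem (mul_mem (inv_mem hg) (f.sw_mem hO ij kl hx hy)) hg) r 0 0 (by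
      simp only [LinearEquiv.mul_apply, isom_inv gI]
      rw [f.sum, sum4 ij ik il jk jl kl]
      simp only [f.sw ij hx, f.sw kl hy, ij, ik, il, jk, jl, kl, ij.symm, ik.symm, il.symm, jk.symm, jl.symm, kl.symm,
        if_true, if_false]
      simp only [ec, ec', map_mul, h.invol] at s
      linear_combination s)
  have c1 := (map_ne_zero σ).2 c0
  have hx' : σ (σ (x * c) / c) * (σ (x * c) / c) = 1 := by
    simp only [map_div₀, map_mul, h.invol]; field_simp; linear_combination hx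
  have m := mul_mem (key x hx s) (inv_mem (key _ hx' (by rw [div_mul_cancel₀ _ c0, h.invol, ← s]; ring)))
  have hz : σ (σ (x * c) / c * σ x) * (σ (x * c) / c * σ x) = 1 := by
    rw [map_mul σ (_ / _), h.invol]; linear_combination (σ x * x) * hx' + hx
  have := f.t0 hO hM hc z1 z4 hg hg' ij hz (by
    convert m using 1
    rw [show ∀ a b a' : V ≃ₗ[F] V, g⁻¹ * (a * b) * g * (g⁻¹ * (a' * b) * g)⁻¹ = g⁻¹ * (a * a'⁻¹) * g from
      fun _ _ _ => by group, (f.adm_sw ij hx').inv, map_one]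
    congr 2
    refine LinearEquiv.ext fun v => f.ext fun o => ?_
    generalize σ (x * c) / c = w at hx' hz
    simp only [f.T_co ij hz, LinearEquiv.mul_apply, f.sw ij hx, f.sw ij hx', ij, ij.symm, if_true, if_false, map_mul,
      h.invol]
    split_ifs with a b
    all_goals (try subst a); (try subst b); ring)
  refine this.imp (fun r => ?_) fun r => ?_ <;> field_simp at r
  · linear_combination x * r - σ (x * c) * hx
  · linear_combination x * r - σ (x * c) * hx

theorem pair {i j k l : Fin 4} (ij : i ≠ j) (ik : i ≠ k) (il : i ≠ l) (jk : j ≠ k) (jl : j ≠ l) (kl : k ≠ l)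
    (s : IsSquare (B (e i) (g (e 0)) * B (e j) (g (e 0)))) : False := by
  have n := f.nz hO hM hc z1 z4 hg hg'
  obtain ⟨u, hu, r⟩ := real f.hq (n i 0) (n j 0) s
  have K := fun x y hx hy => f.kk hO hM hc z1 z4 hg hg' ij ik il jk jl kl (x := x) (y := y) hx hy rfl rfl
  have K' := fun x y hx hy => f.kk hO hM hc z1 z4 hg hg' kl ik.symm jk.symm il.symm jl.symm ij (x := x) (y := y)
    hx hy rfl rfl
  have c0 := mul_ne_zero (n i 0) ((map_ne_zero σ).2 (n j 0))
  have c0' := mul_ne_zero (n k 0) ((map_ne_zero σ).2 (n l 0))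
  generalize B (e i) (g (e 0)) * σ (B (e j) (g (e 0))) = c at *
  generalize B (e k) (g (e 0)) * σ (B (e l) (g (e 0))) = c' at *
  have u0 : u ≠ 0 := by rintro rfl; simp at hu
  obtain ⟨x, y, hx, hy, e1, e2⟩ := ph f.hq (c := u * c) (c' := -c') (s := 0) (s' := 0) (mul_ne_zero u0 c0) r
    (neg_ne_zero.2 c0') (map_zero σ) (map_zero σ)
  have mu : ∀ {a b : F}, σ a * a = 1 → σ b * b = 1 → σ (a * b) * (a * b) = 1 := fun {a b} ha hb => by
    rw [map_mul]; linear_combination (σ b * b) * ha + hb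
  rw [← mul_assoc] at e1 e2
  have hw := mu hx hu
  generalize x * u = w at *
  rw [mul_neg, map_neg] at e1
  have k1 := (K w y hw hy (by linear_combination e1)).resolve_right fun r => e2 (by rw [r]; ring)
  have k2 := (K' y w hy hw (by linear_combination e1)).resolve_right fun r => e2 (by rw [e1, r]; ring)
  rw [k1] at e1 e2
  have t2 : (2 : F) ≠ 0 := fun r => e2 (by linear_combination (w * c) * r)
  have k3 : y * c' = -(w * c) := mul_left_cancel₀ t2 (by linear_combination e1 - k2)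
  have w0 : w * c ≠ 0 := fun r => e2 (by simp [r])
  have := K _ _ (mu z1 hw) (mu z1 hy) (by rw [mul_assoc, mul_assoc, k3, mul_neg, map_neg]; ring)
  rw [mul_assoc, map_mul, k1, mul_left_inj' w0, ← neg_mul, mul_left_inj' w0] at this
  rcases this with r | r <;> rw [r] at z1
  · exact z4 (by linear_combination (ζ ^ 2 + 1) * z1)
  · exact z4 (by linear_combination (1 - ζ ^ 2) * z1)

omit hO hM hc z1 z4 hg hg' in
theorem max4 (h3 : q ≠ 3) : IsMaximalIn h.Om (dstab D ⊓ h.Om) := by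
  have d := f.d
  refine isMaximalIn_inf (fun hc => ?_) fun M a hM g hg hg' => by_contra fun hc => ?_
  · have b := h.form.finrank_perp h.sep (D 0)
    have := f.h1 0
    obtain ⟨y, hy, y0, q⟩ := h.exists_sing3 (W := perp B (D 0)) (by rw [f.rank] at b; omega)
    obtain ⟨c, hc'⟩ := h.exists_tau (e 0)
    obtain ⟨π, hπ⟩ := dstab_perm (hc (h.eich_mem_om q (h.refl (hy _ (f.he 0))) hc'))
    have k := hπ 0 _ (f.he 0)
    rw [h.eich_of_perp q (h.refl (hy _ (f.he 0))) c (h.refl (hy _ (f.he 0)))] at k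
    have pi : p 0 y = 0 := (p_eq_zero h d).mpr hy
    obtain ⟨j, hj⟩ : ∃ j, p j y ≠ 0 := by
      by_contra! hc; exact y0 (ext_p d fun i => by simp [hc])
    have hij : 0 ≠ j := by rintro rfl; exact hj pi
    refine d.notMem hij ?_ ?_ _ k
    · simp [pi, d.self 0 _ (f.he 0), f.ne]
    · simp [d.zero j 0 hij.symm _ (f.he 0), f.e1, hj]
  have hO : Ov h D M := fun g x y => a ⟨y, x⟩
  obtain ⟨ζ, z1, z4⟩ := zeta f.hq h3
  have n := f.nz hO hM hc z1 z4 hg hg'
  have P := @pair _ _ _ _ _ _ _ _ _ _ _ _ _ _ f _ hO hM hc _ z1 z4 _ hg hg'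
  rcases sq3 (n 0 0) (n 1 0) (n 2 0) with s | s | s
  · exact P (k := 2) (l := 3) (by decide) (by decide) (by decide) (by decide) (by decide) (by decide) s
  · exact P (k := 1) (l := 3) (by decide) (by decide) (by decide) (by decide) (by decide) (by decide) s
  · exact P (k := 0) (l := 3) (by decide) (by decide) (by decide) (by decide) (by decide) (by decide) s

end Fm

theorem exists_fm {F : Type*} [Field F] [Fintype F] {n q : ℕ} (hF : Fintype.card F = q ^ 2) {t : ℕ}
    {D : Fin t → Submodule F (Fin n → F)} (hD : IsNondegenerateMDecomposition (Cfsg.hermForm n F q) 1 D) :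
    ∃ p e, Fm q (clSU hF n) D p e := by
  have h := clSU hF n
  have hq := qConj_conjQ hF
  have hH := hq.isHerm (Fin n)
  have e := hD.decomp.finrank_eq
  have nd := fun i => nondegOn_of (Or.inr (hermForm_eq hF)) (hD.nondegenerate i)
  obtain ⟨p, d⟩ := h.exists_dec nd (fun i hi => by have := e i; rw [hi] at this; simp at this)
    (fun i j hij x hx y hy => by
      rw [← hermForm_eq hF]; exact hD.orthogonal j i hij.symm y hy x hx)
    hD.decomp.iSup_eq_top
    (fun i j => by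
      obtain ⟨g, hg⟩ := (hH.pull (D i).subtype).exists_equiv (nondegOn_iff.mp (nd i))
        (hH.pull (D j).subtype) (nondegOn_iff.mp (nd j)) (by rw [e, e])
      exact ⟨g, fun x y => hg x y, fun x => hg x x⟩)
  choose v he e1 using fun j => herm_val hH h (d.nd j) (e j).ge (map_one _)
  exact ⟨p, v, hq, hH, d, fun i => (e i).le, he, e1⟩

/-- Conjunct (3) of S5783. -/
theorem su4_frame {F : Type*} [Field F] [Fintype F] (q : ℕ) (hF : Fintype.card F = q ^ 2) :
    q ≠ 3 → ∀ D : Fin 4 → Submodule F (Fin 4 → F), Cfsg.Geo.IsNondegenerateMDecomposition (Cfsg.hermForm 4 F q) 1 D → Cfsg.Geo.IsMaximalIn (Cfsg.GU 4 F q ⊓ Cfsg.Geo.specialLinear (Fin 4) F) (Cfsg.Geo.decompositionStabilizer D ⊓ (Cfsg.GU 4 F q ⊓ Cfsg.Geo.specialLinear (Fin 4) F)) := fun h3 D hD => by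
  obtain ⟨p, e, f⟩ := exists_fm hF hD
  exact isMaximalIn_gl (mem_SU_iff hF) (fun g _ => mem_decompositionStabilizer_iff D g) (f.max4 h3)

end Cfsg.Agent.H16.Fr
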