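import Mathlib
import Cfsg.Agent.H16.Fr2

/-! The stabiliser of an orthonormal frame is maximal in `SU₆(q)`, `q ≥ 3`. -/

set_option autoImplicit false
set_option linter.unusedSectionVars false
set_option linter.unusedVariables false

namespace Cfsg.Agent.H16.Fr

open Module H10 H11 H11.Im Cfsg.Geo

variable {F : Type*} [Field F] {σ : F →+* F} {q : ℕ} [Fintype F]
  {V : Type*} [AddCommGroup V] [Module F V] [FiniteDimensional F V] {B : V →ₛₗ[σ] V →ₗ[F] F}
  {h : Cl 1 1 (trHom σ) B (fun x => B x x)}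

theorem exists_gen (hq : QConj σ q) : ∃ z, σ z * z = 1 ∧ ∀ k, z ^ k = 1 → q + 1 ∣ k := by
  obtain ⟨z, hz⟩ := IsCyclic.exists_ofOrder_eq_natCard (α := normOne σ)
  exact ⟨z.1, z.2, fun k e => hq.card_normOne ▸ hz ▸ orderOf_dvd_of_pow_eq_one (Subtype.ext (Units.ext e))⟩

theorem ex6' : ∀ i k l : Fin 6, ∃ r s, r ≠ s ∧ r ≠ i ∧ r ≠ k ∧ r ≠ l ∧ s ≠ i ∧ s ≠ k ∧ s ≠ l := by decide

theorem ex6 : ∀ i m : Fin 6, ∃ r s u, r ≠ s ∧ r ≠ u ∧ s ≠ u ∧ r ≠ i ∧ r ≠ m ∧ s ≠ i ∧ s ≠ m := by decide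

namespace Fm

section
variable {t : ℕ} {D : Fin t → Submodule F V} {p : Fin t → V →ₗ[F] V} {e : Fin t → V} (f : Fm q h D p e)
include f

theorem rank' (i : Fin t) : finrank F V = t := by
  have := finrank_eq_mul f.d i
  rwa [le_antisymm (f.h1 i) (Submodule.one_le_finrank_iff.2 (f.d.ne i)), mul_one] at this

theorem pars {g : V ≃ₗ[F] V} (hg : g ∈ Isom B fun x => B x x) (v : V) :
    ∑ a, σ (B v (g (e a))) * B v (g (e a)) = B v v := by
  rw [← (inv_mem hg).1, f.sum]
  exact Finset.sum_congr rfl fun a _ => by rw [isom_inv hg, symm1 h v, h.invol, mul_comm]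

theorem exc {v : V} (c : v ≠ 0) : ∃ k, B (e k) v ≠ 0 := by
  by_contra! z; exact c (f.ext fun l => by simp [z])

theorem rt5 (ht : 5 ≤ t) : RT h D := fun M hM hK a ha out => by
  classical
  have G := gen_herm f.hq f.hH h f.d
  have k : ∀ a, Lam h M a → 3 < (Finset.univ.filter (p · a ≠ 0)).card → h.Om ≤ M := fun a ha c => by
    obtain ⟨o, ho⟩ := Finset.card_pos.1 (Nat.zero_lt_of_lt c)
    obtain ⟨i, hi, j, hj, k, hk, ij, ik, jk⟩ := Finset.two_lt_card.1
      (show 2 < ((Finset.univ.filter (p · a ≠ 0)).erase o).card by rw [Finset.card_erase_of_mem ho]; omega)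
    simp only [Finset.mem_erase, Finset.mem_filter, Finset.mem_univ, true_and, Ne, f.p0] at hi hj hk ho
    have nr : ∀ l, σ (σ (B (e l) a) * B (e l) a) = σ (B (e l) a) * B (e l) a := fun l => by
      rw [map_mul, h.invol, mul_comm]
    obtain ⟨x, y, z, hx, hy, hz, xy, s⟩ : ∃ x y z, σ x * x = 1 ∧ σ y * y = 1 ∧ σ z * z = 1 ∧ (x ≠ 1 ∨ y ≠ 1) ∧
        (x - 1) * (σ (B (e i) a) * B (e i) a) + (y - 1) * (σ (B (e j) a) * B (e j) a) +
          (z - 1) * (σ (B (e k) a) * B (e k) a) = 0 := by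
      by_cases c : σ (B (e i) a) * B (e i) a + σ (B (e j) a) * B (e j) a + σ (B (e k) a) * B (e k) a = 0
      · obtain ⟨x, hx, x1⟩ := exists_zeta f.hq
        exact ⟨x, x, x, hx, hx, hx, .inl (by rintro rfl; simp at x1), by linear_combination (x - 1) * c⟩
      obtain ⟨x, y, z, hx, hy, hz, xy, s⟩ := lemP f.hq (by simp [hi.2]) (by simp [hj.2]) (by simp [hk.2]) c
        (nr i) (nr j) (nr k)
      exact ⟨x, y, z, hx, hy, hz, by by_contra! r; exact xy (r.1.trans r.2.symm), s⟩
    obtain ⟨u, u0, m, u1, u2, -, u4⟩ := f.tang hM hK ha ij ik jk hx hy hz s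
    refine G.full f.d hK hM (fun c => ?_) u0 (h.ar_of_arm m) (o := o) (f.p0.2 (u4 o (Ne.symm hi.1) (Ne.symm hj.1)
      (Ne.symm hk.1))) (mt f.p0.1 ho) (I := {i, j, k}) (fun l hl => by_contra fun c => ?_)
      (by simp [Ne.symm hi.1, Ne.symm hj.1, Ne.symm hk.1]) (by have := Finset.card_le_three (a := i) (b := j) (c := k); omega)
    · rw [c, map_zero, eq_comm, mul_eq_zero, sub_eq_zero] at u1 u2
      exact xy.elim (· (u1.resolve_right hi.2)) (· (u2.resolve_right hj.2))
    · simp only [Finset.mem_insert, Finset.mem_singleton, not_or] at c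
      exact hl (f.p0.2 (u4 l c.1 c.2.1 c.2.2))
  have k' : ∀ n a, Lam h M a → (Finset.univ.filter (p · a ≠ 0)).card + n = 4 →
      2 ≤ (Finset.univ.filter (p · a ≠ 0)).card → h.Om ≤ M := fun n => by
    induction n using Nat.strong_induction_on with
    | _ n ih =>
    intro a ha c c'
    by_cases z : n = 0
    · exact k a ha (by omega)
    obtain ⟨b, hb, l⟩ := G.enlarge f.d hK hM ha (by convert c') (by
      convert (show 2 * (Finset.univ.filter (p · a ≠ 0)).card ≤ t + 1 by omega))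
    replace l : (Finset.univ.filter (p · a ≠ 0)).card < (Finset.univ.filter (p · b ≠ 0)).card := by convert l
    by_cases z' : 3 < (Finset.univ.filter (p · b ≠ 0)).card
    · exact k b hb z'
    · exact ih (4 - (Finset.univ.filter (p · b ≠ 0)).card) (by omega) b hb (by omega) (by omega)
  obtain ⟨i, j, ij, hi, hj⟩ := f.d.exists_two ⟨0, by omega⟩ out
  have c : 2 ≤ (Finset.univ.filter (p · a ≠ 0)).card := Finset.one_lt_card.2 ⟨i, by simpa, j, by simpa, ij⟩
  by_cases z' : 3 < (Finset.univ.filter (p · a ≠ 0)).card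
  · exact k a ha z'
  · exact k' (4 - (Finset.univ.filter (p · a ≠ 0)).card) a ha (by omega) c

end

variable {D : Fin 6 → Submodule F V} {p : Fin 6 → V →ₗ[F] V} {e : Fin 6 → V} (f : Fm q h D p e)
  {M : Subgroup (V ≃ₗ[F] V)} (hO : Ov h D M) (hM : M ≤ h.Om) (hc : ¬ h.Om ≤ M) (h3 : 3 ≤ q)
  {g : V ≃ₗ[F] V} (hg : g ∈ M) (hg' : g ∉ dstab D)
include f hO hM hc h3 hg hg'

theorem l2 {i m j a : Fin 6} (im : i ≠ m) (hi : B (e i) (g (e j)) = 0) (hm : B (e m) (g (e j)) = 0)
    (ha : B (e i) (g (e a)) ≠ 0) : B (e m) (g (e a)) ≠ 0 ∧ ∀ l, l ≠ i → l ≠ m → B (e l) (g (e a)) = 0 := by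
  have gI := h.om_le_isom (hM hg)
  have S := @f.st _ _ _ _ _ _ _ _ _ _ _ _ _ _ _ _ hO (f.rt5 (by decide)) (by decide) hM hc
  have k : ∀ z, σ z * z = 1 → (∀ l, l ≠ i → (if l = m then σ z else 1) = z ∨ B (e l) (g (e a)) = 0) ∨
      1 + (z - 1) * (σ (B (e i) (g (e a))) * B (e i) (g (e a))) +
        (σ z - 1) * (σ (B (e m) (g (e a))) * B (e m) (g (e a))) = 0 := fun z hz => by
    refine (f.dich gI (S (mul_mem (mul_mem (inv_mem hg) (f.T_mem hO i m hz)) hg) (j := j) (l := j)
      (by simpa [f.T_app im hz, hi, hm, inv_app] using f.he j)) a).imp (fun ⟨c, hc'⟩ l b => ?_) fun r => by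
        rwa [f.T_val im hz, gI.1, f.e1] at r
    have k0 := f.T_co im hz (g (e a)) i
    have k1 := f.T_co im hz (g (e a)) l
    rw [hc', map_smul, smul_eq_mul] at k0 k1
    rw [if_pos rfl, mul_left_inj' ha] at k0
    rwa [if_neg b, k0, eq_comm, mul_eq_mul_right_iff] at k1
  have k' : ∀ z, σ z * z = 1 → z ^ 2 ≠ 1 → σ (B (e m) (g (e a))) * B (e m) (g (e a)) =
      σ (B (e i) (g (e a))) * B (e i) (g (e a)) ∧ (2 - z - σ z) * (σ (B (e i) (g (e a))) * B (e i) (g (e a))) = 1 :=
    fun z hz z2 => by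
    have zz : σ z ≠ z := fun c => z2 (by rw [← hz, c, pow_two])
    have r := (k z hz).resolve_left fun r => hg' (S hg (j := a) (l := i) (f.mem.2 fun l b =>
      (r l b).resolve_left fun r => by
        split_ifs at r
        exacts [zz r, zz (by rw [← r, map_one])]))
    have r' := congrArg σ r
    simp only [map_add, map_mul, map_sub, map_one, map_zero, h.invol] at r'
    have k1 : σ (B (e m) (g (e a))) * B (e m) (g (e a)) = σ (B (e i) (g (e a))) * B (e i) (g (e a)) :=
      mul_left_cancel₀ (sub_ne_zero.2 zz) (by linear_combination r - r')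
    exact ⟨k1, by rw [k1] at r; linear_combination -r⟩
  obtain ⟨z, hz, o⟩ := exists_gen f.hq
  have z2 : z ^ 2 ≠ 1 := fun c => by have := Nat.le_of_dvd two_pos (o _ c); omega
  have z3 : z ^ 3 ≠ 1 := fun c => by have := Nat.le_of_dvd three_pos (o _ c); omega
  have n : σ (B (e i) (g (e a))) * B (e i) (g (e a)) ≠ 0 := by simp [ha]
  obtain ⟨k1, k2⟩ := k' z hz z2
  refine ⟨fun c => n (by rw [← k1, c, mul_zero]), fun l b b' => ?_⟩
  have hz' : σ (z ^ 2) * z ^ 2 = 1 := by rw [map_pow, ← mul_pow, hz, one_pow]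
  have z4 : z ^ 2 = -1 := (mul_self_eq_one_iff.1 (by_contra fun c => by
    have := mul_right_cancel₀ n ((k' _ hz' (by rwa [pow_two])).2.trans k2.symm)
    rw [map_pow] at this
    exact mul_ne_zero (sub_ne_zero.2 z3) (sub_ne_zero.2 (show z ≠ 1 by rintro rfl; simp at z2))
      (by linear_combination (-z ^ 2) * this + (z - z * σ z - 1) * hz))).resolve_left z2
  have z5 : σ z = -z := by linear_combination σ z * z4 - z * hz
  rcases k _ hz' with r | r
  · exact (r l b).resolve_left (by rw [if_neg b']; exact z2.symm)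
  · rw [map_pow, k1, z5, neg_sq, z4] at r
    rw [z5] at k2
    exact absurd (by linear_combination -r - 2 * k2) (one_ne_zero (α := F))

theorem z2 {i m j : Fin 6} (im : i ≠ m) (hi : B (e i) (g (e j)) = 0) : B (e m) (g (e j)) ≠ 0 := fun hm => by
  have gI := h.om_le_isom (hM hg)
  have ex : ∀ i, ∃ a, B (e i) (g (e a)) ≠ 0 := fun i => (f.exc (v := g⁻¹ (e i)) (by simp [f.ne])).imp
    fun a c => by rw [isom_inv gI] at c; exact h.refl_ne c
  obtain ⟨a, ha⟩ := ex i
  obtain ⟨r, s, u, rs, ru, su, ri, rm, si, sm⟩ := ex6 i m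
  have k := (f.l2 hO hM hc h3 hg hg' im hi hm ha).2
  obtain ⟨b, hb⟩ := ex r
  obtain ⟨r', s', u', rs', -, -, a1, a2, a3, a4⟩ := ex6 r s
  have k1 := f.l2 hO hM hc h3 hg hg' rs (k r ri rm) (k s si sm) hb
  obtain ⟨v, vi, vm, vr, vs⟩ : ∃ v, v ≠ i ∧ v ≠ m ∧ v ≠ r ∧ v ≠ s := by
    obtain ⟨v, -, hv⟩ := Finset.exists_mem_notMem_of_card_lt_card (s := {i, m, r, s}) (t := Finset.univ)
      (Finset.card_le_four.trans_lt (by simp))
    exact ⟨v, by simpa [not_or] using hv⟩
  exact k1.1 ((f.l2 hO hM hc h3 hg hg' vr.symm (k r ri rm) (k v vi vm) hb).2 s rs.symm vs.symm)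

theorem nz6 (i j : Fin 6) : B (e i) (g (e j)) ≠ 0 := fun hi => by
  classical
  have gI := h.om_le_isom (hM hg)
  have S := @f.st _ _ _ _ _ _ _ _ _ _ _ _ _ _ _ _ hO (f.rt5 (by decide)) (by decide) hM hc
  have n : ∀ l, l ≠ i → B (e l) (g (e j)) ≠ 0 := fun l c => f.z2 hO hM hc h3 hg hg' c.symm hi
  by_cases h5 : q = 5
  · obtain ⟨k, hk, l, hl, kl, en⟩ := Finset.exists_ne_map_eq_of_card_lt_of_maps_to (s := Finset.univ.erase i)
      (t := (Finset.univ.filter fun x => σ x = x).erase 0)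
      (f := fun l => σ (B (e l) (g (e j))) * B (e l) (g (e j))) (by
        rw [Finset.card_erase_of_mem (by simp), ← Fintype.card_subtype, ← Nat.card_eq_fintype_card, f.hq.card_fixed, h5]
        simp) fun l hl => by simp [n l (by simpa using hl), h.invol, mul_comm]
    replace hk := (Finset.mem_erase.1 hk).1
    replace hl := (Finset.mem_erase.1 hl).1
    have t2 : (2 : F) ≠ 0 := fun c => by
      have := FiniteField.cast_card_eq_zero F
      rw [← Nat.card_eq_fintype_card, f.hq.card, h5] at this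
      push_cast at this
      exact one_ne_zero (α := F) (by linear_combination this - 12 * c)
    obtain ⟨x, ex⟩ : ∃ x, x * B (e k) (g (e j)) = B (e l) (g (e j)) := ⟨_, div_mul_cancel₀ _ (n k hk)⟩
    have hx : σ x * x = 1 := mul_right_cancel₀ (b := σ (B (e k) (g (e j))) * B (e k) (g (e j))) (by simp [n k hk])
      (by rw [← ex, map_mul] at en; linear_combination -en)
    have ad := f.adm_sw kl hx
    have m1 : σ (-1 : F) * -1 = 1 := by simp
    have ss : B (e k - x • e l) (e k - x • e l) = 2 := by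
      simp only [map_sub, map_smul, map_smulₛₗ, LinearMap.sub_apply, LinearMap.smul_apply, f.ee,
        kl, kl.symm, if_true, if_false, smul_eq_mul]
      linear_combination hx
    have si : B (e k - x • e l) (e i) = 0 := by simp [f.ee, hk, hl]
    have m : rf h (e k - x • e l) 1 * rf h (e i) (1 - -1) ∈ M := by
      refine hO _ ((mem_om_herm f.hH h).2 ⟨(mul_mem (rf_mem_isom h _ _) (rf_mem_isom h _ _)).1, ?_⟩)
        (mul_mem (f.sw_dst kl hx) (rf_dstab h f.d (f.he i) _))
      rw [LinearEquiv.coe_toLinearMap_mul, map_mul, det_rf ad, ss, det_rf (by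
        simpa [f.e1] using adm_herm (h := h) (a := e i) (by simp [f.e1]) m1), f.e1]
      ring
    have sj : B (e k - x • e l) (g (e j)) = 0 := by
      simp only [map_sub, map_smulₛₗ, LinearMap.sub_apply, LinearMap.smul_apply, smul_eq_mul, ← ex]
      linear_combination (-B (e k) (g (e j))) * hx
    have ap : ∀ v, (rf h (e k - x • e l) 1 * rf h (e i) (1 - -1)) v =
        v - (2 * B (e i) v) • e i - B (e k - x • e l) v • (e k - x • e l) := fun v => by
      rw [LinearEquiv.mul_apply, f.app m1 (f.e1 i), ad.apply, map_add, map_smul, si]; module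
    have y := S (mul_mem (mul_mem (inv_mem hg) m) hg) (j := j) (l := j) (by
      rw [LinearEquiv.mul_apply, LinearEquiv.mul_apply, ap, sj, hi]; simpa [inv_app] using f.he j)
    have so : ∀ o, o ≠ k → o ≠ l → B (e o) (e k - x • e l) = 0 := fun o a b => by simp [f.ee, a, b]
    generalize e k - x • e l = s at *
    have key : ∀ a, 1 - 2 * (σ (B (e i) (g (e a))) * B (e i) (g (e a))) - σ (B s (g (e a))) * B s (g (e a)) =
        if a = j then 1 else 0 := fun a => by
      split_ifs with c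
      · simp [c, hi, sj]
      have ia : B (e i) (g (e a)) ≠ 0 := fun r => f.z2 hO hM hc h3 (inv_mem hg) (by simpa using hg') c (j := i)
        (by rw [isom_inv gI, h.refl r]) (by rw [isom_inv gI, h.refl hi])
      rcases f.dich gI y a with ⟨c, r⟩ | r <;> rw [ap] at r
      · have k0 := congrArg (B (e i)) r
        simp only [map_sub, map_smul, f.e1, h.refl si, smul_eq_mul] at k0
        obtain rfl : c = -1 := mul_right_cancel₀ ia (by linear_combination -k0)
        have k1 : ∀ o, o ≠ i → o ≠ k → o ≠ l → B (e o) (g (e a)) = 0 := fun o a1 a2 a3 => by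
          have := congrArg (B (e o)) r
          simp only [map_sub, map_smul, f.ee, a1, so o a2 a3, smul_eq_mul, if_false] at this
          exact mul_left_cancel₀ t2 (by linear_combination this)
        obtain ⟨u, v, uv, a1, a2, a3, a4, a5, a6⟩ := ex6' i k l
        exact (f.z2 hO hM hc h3 hg hg' uv (k1 u a1 a2 a3) (k1 v a4 a5 a6)).elim
      · simp only [map_sub, map_smul, gI.1, f.e1, symm1 h (e i), symm1 h s, smul_eq_mul] at r
        linear_combination r
    have := Finset.sum_congr rfl fun a (_ : a ∈ Finset.univ) => key a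
    simp only [Finset.sum_sub_distrib, ← Finset.mul_sum, f.pars gI, f.e1, ss] at this
    simp only [Finset.sum_const, Finset.card_univ, Fintype.card_fin, nsmul_eq_mul, Nat.cast_ofNat,
      Finset.sum_ite_eq', Finset.mem_univ, if_true] at this
    exact one_ne_zero (α := F) (by linear_combination this)
  obtain ⟨ζ, z1, o⟩ := exists_gen f.hq
  have z6 : ζ ^ 6 ≠ 1 := fun c => by
    have d := o _ c
    have := Nat.le_of_dvd (by decide) d
    obtain rfl | rfl : q = 3 ∨ q = 4 := by omega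
    all_goals simp at d
  have z0 : ζ ≠ 0 := by rintro rfl; simp at z1
  have m1 : σ (σ ζ ^ 6) * σ ζ ^ 6 = 1 := by rw [map_pow, h.invol, ← mul_pow, mul_comm, z1, one_pow]
  have m2 : 1 - σ ζ ^ 6 ≠ 0 := fun c => z6 (by rw [map_pow, h.invol] at m1; linear_combination m1 + ζ ^ 6 * c)
  let s := LinearEquiv.smulOfNeZero F V ζ z0
  have sa : ∀ v, s v = ζ • v := fun v => rfl
  have m : s * rf h (e j) (1 - σ ζ ^ 6) ∈ M := by
    refine hO _ ((mem_om_herm f.hH h).2 ⟨fun x y => ?_, ?_⟩) (mul_mem (f.dst fun i => ⟨i,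
      (D i).smul_mem _ (f.he i)⟩) (rf_dstab h f.d (f.he j) _))
    · simp only [LinearEquiv.mul_apply, sa, map_smul, map_smulₛₗ, LinearMap.smul_apply, (rf_mem_isom h _ _).1,
        smul_eq_mul]
      linear_combination B x y * z1
    · rw [LinearEquiv.coe_toLinearMap_mul, map_mul, det_rf (by
        simpa [f.e1] using adm_herm (h := h) (a := e j) (by simp [f.e1]) m1),
        show (s : V →ₗ[F] V) = ζ • LinearMap.id from LinearMap.ext sa, LinearMap.det_smul, f.rank' 0, f.e1]
      rw [map_pow, h.invol] at m1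
      simpa using m1
  have m' := mul_mem (mul_mem hg m) (inv_mem hg)
  have xa : ∀ v l, B (e l) ((g * (s * rf h (e j) (1 - σ ζ ^ 6)) * g⁻¹) (e v)) = ζ * ((if l = v then 1 else 0) -
      (1 - σ ζ ^ 6) * σ (B (e v) (g (e j))) * B (e l) (g (e j))) := fun v l => by
    simp only [LinearEquiv.mul_apply, sa, f.app m1 (f.e1 j), map_smul, map_add, app_inv, isom_inv gI, f.ee,
      symm1 h (e v), smul_eq_mul]
    ring
  obtain ⟨π, hπ⟩ := dstab_perm (S m' (j := i) (l := i) (f.mem.2 fun l c => by rw [xa]; simp [c, hi]))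
  obtain ⟨k, ki⟩ := exists_ne i
  obtain ⟨l, -, hl⟩ := Finset.exists_mem_notMem_of_card_lt_card (s := {i, k, π k}) (t := Finset.univ)
    (Finset.card_le_three.trans_lt (by simp))
  simp only [Finset.mem_insert, Finset.mem_singleton, not_or] at hl
  simpa [z0, m2, hl, n k ki, n l hl.1] using (xa k l).symm.trans (f.mem.1 (hπ k _ (f.he k)) l hl.2.2)

theorem t6 {i m : Fin 6} (im : i ≠ m) {z : F} (hz : σ z * z = 1) (y : g⁻¹ * T h (e i) (e m) z * g ∈ dstab D) :
    z = 1 := by
  have gI := h.om_le_isom (hM hg)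
  have n := f.nz6 hO hM hc h3 hg hg'
  have k : ∀ {z}, σ z * z = 1 → g⁻¹ * T h (e i) (e m) z * g ∈ dstab D → z = 1 ∨ z + σ z + 4 = 0 := fun {z} hz y => by
    refine or_iff_not_imp_left.2 fun c => ?_
    have k : ∀ a, 1 + (z - 1) * (σ (B (e i) (g (e a))) * B (e i) (g (e a))) +
        (σ z - 1) * (σ (B (e m) (g (e a))) * B (e m) (g (e a))) = 0 := fun a => by
      rcases f.dich gI y a with ⟨s, hs⟩ | hs
      · obtain ⟨o, -, -, -, -, -, io, mo, -⟩ := ex6 i m
        have k0 := f.T_co im hz (g (e a)) i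
        have k1 := f.T_co im hz (g (e a)) o
        rw [hs, map_smul, smul_eq_mul, mul_left_inj' (n _ _)] at k0 k1
        simp_all
      · rwa [f.T_val im hz, gI.1, f.e1] at hs
    have := Finset.sum_congr rfl fun a (_ : a ∈ Finset.univ) => k a
    simp only [Finset.sum_add_distrib, ← Finset.mul_sum, f.row gI] at this
    simp only [Finset.sum_const, Finset.card_univ, Fintype.card_fin, smul_zero, nsmul_eq_mul, Nat.cast_ofNat] at this
    linear_combination this
  have hz' : σ (z * z) * (z * z) = 1 := by rw [map_mul]; linear_combination (σ z * z + 1) * hz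
  refine (k hz y).elim id fun r => ?_
  rcases k hz' (by
    convert mul_mem y y using 1
    rw [show ∀ a : V ≃ₗ[F] V, g⁻¹ * a * g * (g⁻¹ * a * g) = g⁻¹ * (a * a) * g from fun _ => by group]
    congr 2
    refine LinearEquiv.ext fun v => f.ext fun o => ?_
    simp only [LinearEquiv.mul_apply, f.T_co im hz, f.T_co im hz', map_mul]
    split_ifs <;> ring) with r' | r'
  · refine (mul_self_eq_one_iff.1 r').elim id fun c => ?_
    rw [c, map_neg, map_one] at r
    linear_combination c - r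
  · rw [map_mul] at r'
    have : (6 : F) = 0 := pow_eq_zero_iff two_ne_zero |>.1 (by
      linear_combination 2 * r' - 2 * (z + σ z - 4) * r + 4 * hz)
    exact sub_eq_zero.1 (pow_eq_zero_iff two_ne_zero |>.1 (by linear_combination z * r - hz - z * this))

theorem k6 {i j k l : Fin 6} (ij : i ≠ j) (ik : i ≠ k) (il : i ≠ l) (jk : j ≠ k) (jl : j ≠ l) (kl : k ≠ l)
    {x y c c' s : F} (hx : σ x * x = 1) (hy : σ y * y = 1) (ec : c = B (e i) (g (e 0)) * σ (B (e j) (g (e 0))))
    (ec' : c' = B (e k) (g (e 0)) * σ (B (e l) (g (e 0)))) (es : s = 1 - σ (B (e i) (g (e 0))) * B (e i) (g (e 0)) -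
      σ (B (e j) (g (e 0))) * B (e j) (g (e 0)) - σ (B (e k) (g (e 0))) * B (e k) (g (e 0)) -
      σ (B (e l) (g (e 0))) * B (e l) (g (e 0))) (r : x * c + σ (x * c) + (y * c' + σ (y * c')) + s = 0) :
    σ (x * c) = x * c := by
  have gI := h.om_le_isom (hM hg)
  have n := f.nz6 hO hM hc h3 hg hg'
  have c0 : c ≠ 0 := ec ▸ mul_ne_zero (n _ _) ((map_ne_zero σ).2 (n _ _))
  have x0 : x ≠ 0 := by rintro rfl; simp at hx
  have key : ∀ x, σ x * x = 1 → x * c + σ (x * c) + (y * c' + σ (y * c')) + s = 0 →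
      g⁻¹ * (rf h (e i - x • e j) 1 * rf h (e k - y • e l) 1) * g ∈ dstab D := fun x hx r => by_contra fun r' =>
    f.nz6 hO hM hc h3 (mul_mem (mul_mem (inv_mem hg) (f.sw_mem hO ij kl hx hy)) hg) r' 0 0 (by
      simp only [LinearEquiv.mul_apply, isom_inv gI, (f.adm_sw ij hx).apply, (f.adm_sw kl hy).apply, map_sub,
        map_smul, map_smulₛₗ, LinearMap.sub_apply, LinearMap.smul_apply, f.ee, ik, il, jk, jl, if_false, if_true, gI.1,
        symm1 h (e _) (g (e 0)), smul_eq_mul]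
      simp only [ec, ec', es, map_mul, h.invol] at r
      linear_combination r - (σ (B (e j) (g (e 0))) * B (e j) (g (e 0))) * hx -
        (σ (B (e l) (g (e 0))) * B (e l) (g (e 0))) * hy)
  have c1 := (map_ne_zero σ).2 c0
  have hx' : σ (σ (x * c) / c) * (σ (x * c) / c) = 1 := by
    simp only [map_div₀, map_mul, h.invol]; field_simp; linear_combination hx
  have m := mul_mem (key x hx r) (inv_mem (key _ hx' (by rw [div_mul_cancel₀ _ c0, h.invol, ← r]; ring)))
  have hz : σ (σ (x * c) / c * σ x) * (σ (x * c) / c * σ x) = 1 := by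
    rw [map_mul σ (_ / _), h.invol]; linear_combination (σ x * x) * hx' + hx
  have := f.t6 hO hM hc h3 hg hg' ij hz (by
    convert m using 1
    rw [show ∀ a b a' : V ≃ₗ[F] V, g⁻¹ * (a * b) * g * (g⁻¹ * (a' * b) * g)⁻¹ = g⁻¹ * (a * a'⁻¹) * g from
      fun _ _ _ => by group, (f.adm_sw ij hx').inv, map_one]
    congr 2
    refine LinearEquiv.ext fun v => f.ext fun o => ?_
    generalize σ (x * c) / c = w at hx' hz
    simp only [f.T_co ij hz, LinearEquiv.mul_apply, f.sw ij hx, f.sw ij hx', ij, ij.symm, if_true, if_false, map_mul,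
      h.invol]
    split_ifs with a b
    all_goals (try subst a); (try subst b); ring)
  field_simp at this
  linear_combination x * this - σ (x * c) * hx

theorem pair6 {i j k l : Fin 6} (ij : i ≠ j) (ik : i ≠ k) (il : i ≠ l) (jk : j ≠ k) (jl : j ≠ l) (kl : k ≠ l)
    (s : IsSquare (B (e i) (g (e 0)) * B (e j) (g (e 0)))) : False := by
  have n := f.nz6 hO hM hc h3 hg hg'
  obtain ⟨u, hu, r⟩ := real f.hq (n i 0) (n j 0) s
  have K := fun x y hx hy => f.k6 hO hM hc h3 hg hg' ij ik il jk jl kl (x := x) (y := y) hx hy rfl rfl rfl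
  have K' := fun x y hx hy => f.k6 hO hM hc h3 hg hg' kl ik.symm jk.symm il.symm jl.symm ij (x := x) (y := y)
    (s := 1 - σ (B (e i) (g (e 0))) * B (e i) (g (e 0)) -
      σ (B (e j) (g (e 0))) * B (e j) (g (e 0)) - σ (B (e k) (g (e 0))) * B (e k) (g (e 0)) -
      σ (B (e l) (g (e 0))) * B (e l) (g (e 0))) hx hy rfl rfl (by ring)
  have c0 := mul_ne_zero (n i 0) ((map_ne_zero σ).2 (n j 0))
  have c0' := mul_ne_zero (n k 0) ((map_ne_zero σ).2 (n l 0))
  have sr : σ (1 - σ (B (e i) (g (e 0))) * B (e i) (g (e 0)) -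
      σ (B (e j) (g (e 0))) * B (e j) (g (e 0)) - σ (B (e k) (g (e 0))) * B (e k) (g (e 0)) -
      σ (B (e l) (g (e 0))) * B (e l) (g (e 0))) = 1 - σ (B (e i) (g (e 0))) * B (e i) (g (e 0)) -
      σ (B (e j) (g (e 0))) * B (e j) (g (e 0)) - σ (B (e k) (g (e 0))) * B (e k) (g (e 0)) -
      σ (B (e l) (g (e 0))) * B (e l) (g (e 0)) := by simp only [map_sub, map_mul, map_one, h.invol]; ring
  generalize 1 - σ (B (e i) (g (e 0))) * B (e i) (g (e 0)) -
      σ (B (e j) (g (e 0))) * B (e j) (g (e 0)) - σ (B (e k) (g (e 0))) * B (e k) (g (e 0)) -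
      σ (B (e l) (g (e 0))) * B (e l) (g (e 0)) = s at *
  generalize B (e i) (g (e 0)) * σ (B (e j) (g (e 0))) = c at *
  generalize B (e k) (g (e 0)) * σ (B (e l) (g (e 0))) = c' at *
  have u0 : u ≠ 0 := by rintro rfl; simp at hu
  have mu : ∀ {a b : F}, σ a * a = 1 → σ b * b = 1 → σ (a * b) * (a * b) = 1 := fun {a b} ha hb => by
    rw [map_mul]; linear_combination (σ b * b) * ha + hb
  have r0 := mul_ne_zero u0 c0
  have A : ∀ ε : F, ε * ε = 1 → σ ε = ε → (2 : F) ≠ 0 ∧ ∃ y, σ y * y = 1 ∧ σ (y * c') = y * c' ∧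
      s - 2 * ε * (u * c) + 2 * (y * c') = 0 := fun ε e1 e2 => by
    obtain ⟨x, y, hx, hy, a, b⟩ := ph f.hq (c := u * c) (c' := -c') (s := -(2 * ε * (u * c)))
      (s' := -s - 2 * ε * (u * c)) r0 r (neg_ne_zero.2 c0') (by rw [map_neg, map_mul, map_mul, r, e2, map_ofNat])
      (by rw [map_sub, map_neg, map_mul, map_mul, r, e2, sr, map_ofNat])
    rw [mul_neg, map_neg] at a
    have k1 := K _ y (mu hx hu) hy (by rw [mul_assoc]; linear_combination a)
    have k2 := K' y _ hy (mu hx hu) (by rw [mul_assoc]; linear_combination a)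
    rw [mul_assoc] at k1
    rw [k1] at a b
    rw [map_mul, r, mul_left_inj' r0] at k1
    have : x = -ε := (mul_self_eq_mul_self_iff.1 (by rw [e1, ← hx, k1])).resolve_left fun c => b (by rw [c]; ring)
    rw [this] at a b
    exact ⟨fun t => b (by linear_combination (-2 * ε * (u * c)) * t), y, hy, k2, by linear_combination a - k2⟩
  obtain ⟨t2, y, hy, a1, a2⟩ := A 1 (by simp) (by simp)
  obtain ⟨-, y', hy', b1, b2⟩ := A (-1) (by simp) (by simp)
  have : y' * c' = -(y * c') := (mul_self_eq_mul_self_iff.1 (by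
    nth_rw 1 [← a1, ← b1]
    simp only [map_mul]
    linear_combination (σ c' * c') * (hy' - hy))).resolve_left fun e => mul_ne_zero t2 (mul_ne_zero t2 r0)
      (by linear_combination b2 - a2 - 2 * e)
  have s0 : s = 0 := mul_left_cancel₀ t2 (by linear_combination a2 + b2 - 2 * this)
  have k3 : y' * c' = -(u * c) := mul_left_cancel₀ t2 (by linear_combination b2 - s0)
  obtain ⟨z, z1, z2⟩ := exists_zeta f.hq
  have := K _ _ (mu z1 hu) (mu z1 hy') (by rw [mul_assoc, mul_assoc, k3, mul_neg, map_neg, s0]; ring)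
  rw [mul_assoc, map_mul, r, mul_left_inj' r0] at this
  exact z2 this

omit hO hM hc hg hg' in
theorem max6 : IsMaximalIn h.Om (dstab D ⊓ h.Om) :=
  max_of f.d h (by rw [f.rank' 0]; decide) (by decide) fun M hO hM g hg hg' => by_contra fun hc => by
    have n := f.nz6 hO hM hc h3 hg hg'
    have P := @pair6 _ _ _ _ _ _ _ _ _ _ _ _ _ _ f _ hO hM hc h3 _ hg hg'
    rcases sq3 (n 0 0) (n 1 0) (n 2 0) with s | s | s <;>
      exact P (k := 3) (l := 4) (by decide) (by decide) (by decide) (by decide) (by decide) (by decide) s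

end Fm

/-- Conjunct (3) of S5801. -/
theorem su6_frame {F : Type*} [Field F] [Fintype F] (q : ℕ) (hF : Fintype.card F = q ^ 2) :
    3 ≤ q → ∀ D : Fin 6 → Submodule F (Fin 6 → F), Cfsg.Geo.IsNondegenerateMDecomposition (Cfsg.hermForm 6 F q) 1 D → Cfsg.Geo.IsMaximalIn (Cfsg.GU 6 F q ⊓ Cfsg.Geo.specialLinear (Fin 6) F) (Cfsg.Geo.decompositionStabilizer D ⊓ (Cfsg.GU 6 F q ⊓ Cfsg.Geo.specialLinear (Fin 6) F)) := fun h3 D hD => by
  obtain ⟨p, e, f⟩ := exists_fm hF hD
  exact isMaximalIn_gl (mem_SU_iff hF) (fun g _ => mem_decompositionStabilizer_iff D g) (f.max6 h3)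

end Cfsg.Agent.H16.Fr
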