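import Mathlib
import Cfsg.Agent.H11.Im10

/-! Orthogonal decompositions of unitary spaces into at least three members of dimension at least two. -/

set_option autoImplicit false
set_option linter.unusedSectionVars false
set_option linter.unusedVariables false

namespace Cfsg.Agent.H16.Fr

open Module H10 H11 H11.Im Cfsg.Geo

theorem max_three {F : Type*} [Field F] {σ : F →+* F} {q : ℕ} [Fintype F]
    {V : Type*} [AddCommGroup V] [Module F V] [FiniteDimensional F V] {B : V →ₛₗ[σ] V →ₗ[F] F}
    {t : ℕ} {D : Fin t → Submodule F V} {p : Fin t → V →ₗ[F] V} (hq : QConj σ q) (hH : IsHerm B)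
    (h : Cl 1 1 (trHom σ) B (fun x => B x x)) (d : Dec B (fun x => B x x) D p) (ht : 3 ≤ t)
    (h2 : ∀ i, 2 ≤ finrank F (D i)) (hex : ∀ i, ¬ (finrank F (D i) = 2 ∧ q = 2)) :
    IsMaximalIn h.Om (dstab D ⊓ h.Om) := by
  have R : RT h D := fun M hM hK a ha out => (gen_herm hq hH h d).main d hK hM
    (sumP_one d h fun j x hx x0 => ts_herm hH h (d.nd j) (h2 j) hx x0) (by omega) ha out
  refine max_of d h (by
    rw [finrank_eq_mul d ⟨0, by omega⟩]; have := h2 ⟨0, by omega⟩; nlinarith) (by omega)
    fun M hO hM g hg hg' => by_contra fun hc => hg' (herm_two hq hH h d hO hM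
      (fun x hx i v hv q e => by_contra fun hx' => hc (hO.np d hM R (fun i => conn_herm hq hH h (d.nd i)
        (Submodule.one_le_finrank_iff.mpr (d.ne i)) (hex i)) (X := Submodule.span F {v})
        (by simpa using hv) (adj_herm hH h (Submodule.mem_span_singleton_self _) q) hx (fun y hy => by
          obtain ⟨s, rfl⟩ := Submodule.mem_span_singleton.mp hy
          rwa [map_smul, e]) hx')) (by omega) h2 hg)

theorem exists_dec' {F : Type*} [Field F] [Fintype F] {n q : ℕ} (hF : Fintype.card F = q ^ 2) {t k : ℕ}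
    {D : Fin t → Submodule F (Fin n → F)} (hD : IsNondegenerateMDecomposition (Cfsg.hermForm n F q) k D) :
    ∃ p, Dec (hermB (Fin n) (conjQ hF)) (fun x => hermB (Fin n) (conjQ hF) x x) D p := by
  have hH := (qConj_conjQ hF).isHerm (Fin n)
  have e := hD.decomp.finrank_eq
  have nd := fun i => nondegOn_of (Or.inr (hermForm_eq hF)) (hD.nondegenerate i)
  exact (clSU hF n).exists_dec nd
    (fun i hi => by
      have h1 := e i
      have h2 := hD.decomp.pos
      rw [hi] at h1; simp at h1; omega)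
    (fun i j hij x hx y hy => by
      rw [← hermForm_eq hF]; exact hD.orthogonal j i hij.symm y hy x hx)
    hD.decomp.iSup_eq_top
    (fun i j => by
      obtain ⟨g, hg⟩ := (hH.pull (D i).subtype).exists_equiv (nondegOn_iff.mp (nd i))
        (hH.pull (D j).subtype) (nondegOn_iff.mp (nd j)) (by rw [e, e])
      exact ⟨g, fun x y => hg x y, fun x => hg x x⟩)

/-- Conjunct (4) of S5801. -/
theorem su6_planes {F : Type*} [Field F] [Fintype F] (q : ℕ) (hF : Fintype.card F = q ^ 2) :
    3 ≤ q → ∀ D : Fin 3 → Submodule F (Fin 6 → F), Cfsg.Geo.IsNondegenerateMDecomposition (Cfsg.hermForm 6 F q) 2 D → Cfsg.Geo.IsMaximalIn (Cfsg.GU 6 F q ⊓ Cfsg.Geo.specialLinear (Fin 6) F) (Cfsg.Geo.decompositionStabilizer D ⊓ (Cfsg.GU 6 F q ⊓ Cfsg.Geo.specialLinear (Fin 6) F)) := fun h3 D hD => by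
  obtain ⟨p, d⟩ := exists_dec' hF hD
  exact isMaximalIn_gl (mem_SU_iff hF) (fun g _ => mem_decompositionStabilizer_iff D g)
    (max_three (qConj_conjQ hF) ((qConj_conjQ hF).isHerm _) _ d le_rfl (fun i => (hD.decomp.finrank_eq i).ge)
      fun i => by omega)

end Cfsg.Agent.H16.Fr
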