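import Mathlib
import Cfsg.Agent.H16.Fr4

/-! Orthogonal decompositions of unitary spaces into members of dimension at least three. -/

set_option autoImplicit false
set_option linter.unusedSectionVars false
set_option linter.unusedVariables false

namespace Cfsg.Agent.H16.Fr

open Module H10 H11 H11.Im Cfsg.Geo

theorem max_big {F : Type*} [Field F] {σ : F →+* F} {q : ℕ} [Fintype F]
    {V : Type*} [AddCommGroup V] [Module F V] [FiniteDimensional F V] {B : V →ₛₗ[σ] V →ₗ[F] F}
    {t : ℕ} {D : Fin t → Submodule F V} {p : Fin t → V →ₗ[F] V} (hq : QConj σ q) (hH : IsHerm B)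
    (h : Cl 1 1 (trHom σ) B (fun x => B x x)) (d : Dec B (fun x => B x x) D p) (ht : 2 ≤ t)
    (h3 : ∀ i, 3 ≤ finrank F (D i)) : IsMaximalIn h.Om (dstab D ⊓ h.Om) := by
  have R : RT h D := fun M hM hK a ha hb => by
    have hH' : Ov h D M := fun g x => hK g (h.om_le_isom x)
    obtain ⟨c, c0, hc⟩ := (gen_herm hq hH h d).adm a ha.1
    obtain ⟨j, hj⟩ := exists_Q_ne d ha.1 h
    have d1 := finrank_le_inf_ker (D j) (B a)
    obtain ⟨e, ⟨he1, he2⟩, he0, he⟩ := h.exists_sing (W := D j ⊓ LinearMap.ker (B a))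
      (.inr ⟨by have := h3 j; omega, IsHerm.nq hH⟩)
    obtain ⟨y, hy, y1, y2⟩ := h.exists_perp_not_in (d.nd j)
      (Z := Submodule.span F {e}) (by simpa using he1) (d.mem j a) (fun hc => by
        obtain ⟨s, hs⟩ := Submodule.mem_span_singleton.mp hc
        exact hj (hs ▸ h.sing_smul he s))
    rw [d.B_p' hy] at y2
    have k1 := h.le_arm he (fun w hw c => hH'.eich d he1 hw he) hy
      (y1 e (Submodule.mem_span_singleton_self _))
    have k2 := (h.Arm M e).sub_mem k1 (h.map_mem_arm hM (ha.2 c) (rf_fix h a c he2) k1)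
    rw [hc.apply, sub_sub_cancel, y2, mul_one] at k2
    obtain ⟨i, hij, hi⟩ : ∃ i, i ≠ j ∧ p i a ≠ 0 := by
      by_contra! hc; exact hb j (d.mem_of hc)
    exact hH'.fin1 d hM (fun i => .inl (h3 i)) (adj_blk hq hH h d) he1 he0 he k2 hij (by simp [c0, hi])
  refine max_of d h (by
    rw [finrank_eq_mul d ⟨0, by omega⟩]; have := h3 ⟨0, by omega⟩; nlinarith) ht
    fun M hO hM g hg hg' => by_contra fun hc => hg' (herm_two hq hH h d hO hM
      (fun x hx i v hv q e => by_contra fun hx' => hc (hO.np d hM R (fun i => conn_herm hq hH h (d.nd i)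
        (Submodule.one_le_finrank_iff.mpr (d.ne i)) fun c => by have := h3 i; omega) (X := Submodule.span F {v})
        (by simpa using hv) (adj_herm hH h (Submodule.mem_span_singleton_self _) q) hx (fun y hy => by
          obtain ⟨s, rfl⟩ := Submodule.mem_span_singleton.mp hy
          rwa [map_smul, e]) hx')) ht (fun i => (h3 i).trans' (by decide)) hg)

/-- Conjunct (5) of S5801. -/
theorem su6_solids {F : Type*} [Field F] [Fintype F] (q : ℕ) (hF : Fintype.card F = q ^ 2) :
    ∀ D : Fin 2 → Submodule F (Fin 6 → F), Cfsg.Geo.IsNondegenerateMDecomposition (Cfsg.hermForm 6 F q) 3 D → Cfsg.Geo.IsMaximalIn (Cfsg.GU 6 F q ⊓ Cfsg.Geo.specialLinear (Fin 6) F) (Cfsg.Geo.decompositionStabilizer D ⊓ (Cfsg.GU 6 F q ⊓ Cfsg.Geo.specialLinear (Fin 6) F)) := fun D hD => by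
  obtain ⟨p, d⟩ := exists_dec' hF hD
  exact isMaximalIn_gl (mem_SU_iff hF) (fun g _ => mem_decompositionStabilizer_iff D g)
    (max_big (qConj_conjQ hF) ((qConj_conjQ hF).isHerm _) _ d le_rfl fun i => (hD.decomp.finrank_eq i).ge)

end Cfsg.Agent.H16.Fr
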