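import Mathlib

/-! Prime divisors of binomial coefficients, for Hall subgroups of symmetric groups. -/

set_option autoImplicit false

namespace Cfsg.Agent.H16

open Nat

theorem coprime_of_small {m c b : ℕ} (hm : 0 < m) (hb : m < b) (h : ∀ r, r.Prime → r < b → ¬ r ∣ c) :
    m.Coprime c :=
  Nat.coprime_of_dvd fun r hr d => h r hr ((Nat.le_of_dvd hm d).trans_lt hb)

theorem cb1 {a : ℕ} (ha : 3 ≤ a) (h : ∀ r, r.Prime → r < a → ¬ r ∣ (2 * a - 1).choose (a - 1)) :
    a = 4 := by
  obtain ⟨b, rfl⟩ : ∃ b, a = b + 2 := ⟨a - 2, by omega⟩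
  rw [show 2 * (b + 2) - 1 = 2 * b + 3 by omega, show b + 2 - 1 = b + 1 by omega] at h
  have e1 := Nat.choose_succ_right_eq (2 * b + 3) b
  rw [show 2 * b + 3 - b = b + 3 by omega] at e1
  obtain ⟨u, rfl | rfl⟩ := b.even_or_odd'
  · obtain ⟨u, rfl⟩ : ∃ v, u = v + 1 := ⟨u - 1, by omega⟩
    have e2 := Nat.choose_succ_right_eq (2 * (2 * (u + 1)) + 3) (2 * u + 1)
    rw [show 2 * (2 * (u + 1)) + 3 - (2 * u + 1) = 2 * (u + 3) by omega,
      show 2 * u + 1 + 1 = 2 * (u + 1) by omega] at e2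
    have d : u + 3 ∣ (2 * (2 * (u + 1)) + 3).choose (2 * (u + 1) + 1) * ((2 * (u + 1) + 1) * (u + 1)) :=
      ⟨(2 * (2 * (u + 1)) + 3).choose (2 * u + 1) * (2 * (u + 1) + 3), by
        rw [← mul_assoc, e1]; nlinarith⟩
    have d := (coprime_of_small (by omega) (by omega) h).dvd_of_dvd_mul_left d
    rw [show (2 * (u + 1) + 1) * (u + 1) = (u + 3) * (2 * u - 1) + (if u = 0 then 3 else 6) by
      split_ifs with h
      · simp [h]
      · obtain ⟨u, rfl⟩ : ∃ v, u = v + 1 := ⟨u - 1, by omega⟩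
        rw [show 2 * (u + 1) - 1 = 2 * u + 1 by omega]; ring] at d
    have d := (Nat.dvd_add_right (dvd_mul_right _ _)).1 d
    split_ifs at d with h0
    · omega
    have := Nat.le_of_dvd (by omega) d
    have : u = 3 := by
      have : u ≤ 3 := by omega
      interval_cases u <;> simp_all
    subst this
    exact absurd (by decide) (h 2 prime_two (by omega))
  · have d : u + 2 ∣ (2 * (2 * u + 1) + 3).choose (2 * u + 1 + 1) * (u + 1) :=
      ⟨(2 * (2 * u + 1) + 3).choose (2 * u + 1), by nlinarith⟩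
    have d := (coprime_of_small (by omega) (by omega) h).dvd_of_dvd_mul_left d
    have := Nat.le_of_dvd (by omega) d
    omega

theorem cb3 {k m : ℕ} (hk : 1 ≤ k) (hkm : k ≤ m) (hm : m.Prime) (h3 : 3 ≤ m)
    (h : ∀ r, r.Prime → r < m → ¬ r ∣ (m + k).choose k) : False := by
  rcases hkm.eq_or_lt with rfl | hkm
  · exact h 2 prime_two (by omega) (by
      rw [← two_mul]; exact Nat.two_dvd_centralBinom_of_one_le (by omega))
  rcases (show k + 1 ≤ m from hkm).eq_or_lt with rfl | hkm
  · have := cb1 h3 (by rwa [show 2 * (k + 1) - 1 = k + 1 + k by omega, Nat.add_sub_cancel])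
    rw [this] at hm
    exact absurd hm (by decide)
  have e := Nat.choose_succ_right_eq (m + k) k
  rw [Nat.add_sub_cancel] at e
  have d := (coprime_of_small (by omega) hkm h).dvd_of_dvd_mul_left ⟨_, e.symm.trans (mul_comm _ _)⟩
  rcases (Nat.dvd_prime hm).1 d with d | d <;> omega

theorem asc_split (u t : ℕ) : (2 * u + 1).ascFactorial (2 * t) =
    (∏ l ∈ Finset.range t, (2 * (u + l) + 1)) * (2 ^ t * (u + 1).ascFactorial t) := by
  induction t with
  | zero => simp
  | succ t ih =>
    rw [show 2 * (t + 1) = 2 * t + 1 + 1 by ring, ascFactorial_succ, ascFactorial_succ, ih,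
      Finset.prod_range_succ, ascFactorial_succ]
    ring

theorem asc_split' (u t : ℕ) : (2 * u + 1 + 1).ascFactorial (2 * t) =
    (∏ l ∈ Finset.range t, (2 * (u + 1 + l) + 1)) * (2 ^ t * (u + 1).ascFactorial t) := by
  induction t with
  | zero => simp
  | succ t ih =>
    rw [show 2 * (t + 1) = 2 * t + 1 + 1 by ring, ascFactorial_succ, ascFactorial_succ, ih,
      Finset.prod_range_succ, ascFactorial_succ]
    ring

theorem asc_bound {c e t x u : ℕ} (ht : t ≠ 0)
    (h : (t + e)! * c = (∏ l ∈ Finset.range t, (2 * (x + l) + 1)) * (2 ^ e * (u + 1).ascFactorial e))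
    (hc : ∀ r, r.Prime → r ≤ 2 ∨ r ≤ t ∨ r ≤ u + e → ¬ r ∣ c) :
    2 ^ (e + 1) * (u + e).choose e ≤ 2 ^ t * (t + e).choose e := by
  obtain ⟨v, D, hD, hv⟩ := Nat.exists_eq_two_pow_mul_odd (factorial_ne_zero t)
  have vt : v < t := by
    have := Nat.emultiplicity_two_factorial_lt ht
    have h2 := le_emultiplicity_of_pow_dvd (show 2 ^ v ∣ t ! from ⟨D, hv⟩)
    exact_mod_cast h2.trans_lt this
  have d1 : D ∣ ∏ l ∈ Finset.range t, (2 * (x + l) + 1) := by
    obtain ⟨w, rfl⟩ := hD
    have := ((Dvd.intro_left _ hv.symm).trans (factorial_dvd_ascFactorial (x + w + 1) t)).mul_left (2 ^ t)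
    rw [ascFactorial_eq_prod_range, ← Finset.card_range t, ← Finset.prod_const, Finset.card_range,
      ← Finset.prod_mul_distrib] at this
    refine (Nat.ModEq.dvd_iff (Nat.ModEq.prod fun l _ => ?_) dvd_rfl).2 this
    rw [show 2 * (x + w + 1 + l) = 2 * (x + l) + 1 + (2 * w + 1) by ring]
    exact (Nat.add_modEq_right).symm
  have c1 : c.Coprime D := Nat.coprime_of_dvd fun r hr d d' => hc r hr (.inr (.inl
    (hr.dvd_factorial.1 (d'.trans (Dvd.intro_left _ hv.symm))))) d
  have c2 : c.Coprime (2 ^ e * (u + 1).ascFactorial e) := Nat.coprime_of_dvd fun r hr d d' => by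
    rcases (hr.dvd_mul).1 d' with d' | d'
    · exact hc r hr (.inl (Nat.le_of_dvd two_pos (hr.dvd_of_dvd_pow d'))) d
    · exact hc r hr (.inr (.inr (hr.dvd_factorial.1
        (d'.trans (Dvd.intro_left _ (factorial_mul_ascFactorial u e)))))) d
  obtain ⟨w, hw⟩ := c1.mul_dvd_of_dvd_of_dvd (c2.dvd_of_dvd_mul_right ⟨_, h.symm.trans (mul_comm _ _)⟩) d1
  have p0 : 0 < ∏ l ∈ Finset.range t, (2 * (x + l) + 1) := Finset.prod_pos fun _ _ => by omega
  rw [hw] at h p0
  have c0 : 0 < c := Nat.pos_of_ne_zero fun e => by simp [e] at p0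
  have w0 : 0 < w := Nat.pos_of_ne_zero fun e => by simp [e] at p0
  rw [ascFactorial_eq_factorial_mul_choose, ← add_choose_mul_factorial_mul_factorial, hv,
    ← choose_symm_add] at h
  have e1 : (t + e).choose e * 2 ^ v = w * (2 ^ e * (u + e).choose e) :=
    Nat.eq_of_mul_eq_mul_left (show 0 < c * D * (e)! by have := hD.pos; positivity) (by
      rw [← choose_symm_add]; linarith)
  have : 2 ^ (v + 1) ≤ 2 ^ t := Nat.pow_le_pow_right two_pos vt
  calc 2 ^ (e + 1) * (u + e).choose e ≤ 2 * (w * (2 ^ e * (u + e).choose e)) := by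
        rw [pow_succ]; nlinarith [Nat.zero_le (2 ^ e * (u + e).choose e)]
    _ = 2 ^ (v + 1) * (t + e).choose e := by rw [← e1]; ring
    _ ≤ _ := Nat.mul_le_mul_right _ this

theorem cb2 {k m : ℕ} (hk : 2 ≤ k) (hkm : k ≤ m) (h : ∀ r, r.Prime → r ≤ m → ¬ r ∣ (m + k).choose k) :
    k = 3 ∧ m = 4 := by
  have key : ∀ e t x u, t + e = k → t ≤ e + 1 → e ≤ t + 1 → t ≤ u → u + e ≤ m →
      (m + 1).ascFactorial k = (∏ l ∈ Finset.range t, (2 * (x + l) + 1)) *
        (2 ^ e * (u + 1).ascFactorial e) → u = t ∧ t = e + 1 := fun e t x u h1 h2 h3 h4 h5 h6 => by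
    rw [ascFactorial_eq_factorial_mul_choose] at h6
    have := asc_bound (by omega) (h1 ▸ h6) fun r hr h' => h1 ▸ h r hr (by omega)
    have p := Nat.choose_pos (show e ≤ t + e by omega)
    have l1 := Nat.choose_le_choose e (show t + e ≤ u + e by omega)
    rcases h2.eq_or_lt with rfl | h2
    · refine ⟨by_contra fun hu => ?_, rfl⟩
      obtain ⟨e, rfl⟩ : ∃ v, e = v + 1 := ⟨e - 1, by omega⟩
      have l2 := Nat.choose_le_choose (e + 1) (show e + 1 + 1 + (e + 1) + 1 ≤ u + (e + 1) by omega)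
      have := Nat.le_of_mul_le_mul_left this (by positivity)
      have := Nat.choose_pos (show e ≤ e + 1 + 1 + (e + 1) by omega)
      rw [choose_succ_succ'] at l2
      omega
    · have : 2 ^ t < 2 ^ (e + 1) := Nat.pow_lt_pow_right one_lt_two h2
      have := Nat.mul_lt_mul_of_lt_of_le this l1 (by omega)
      omega
  obtain ⟨u, rfl | rfl⟩ := m.even_or_odd' <;> obtain ⟨t, rfl | rfl⟩ := k.even_or_odd'
  · have := key t t u u (by omega) (by omega) (by omega) (by omega) (by omega) (asc_split u t)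
    omega
  · obtain ⟨rfl, -⟩ := key t (t + 1) u u (by omega) (by omega) (by omega) (by omega) (by omega) (by
      rw [ascFactorial_succ, asc_split, Finset.prod_range_succ]; ring)
    have := cb1 (a := 2 * (t + 1)) (by omega) fun r hr h' => by
      convert h r hr h'.le using 3 <;> omega
    omega
  · have := key t t (u + 1) u (by omega) (by omega) (by omega) (by omega) (by omega) (asc_split' u t)
    omega
  · have := key (t + 1) t (u + 1) u (by omega) (by omega) (by omega) (by omega) (by omega) (by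
      rw [ascFactorial_succ, asc_split', ascFactorial_succ]; ring)
    omega

end Cfsg.Agent.H16
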