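import Mathlib
import Cfsg.Agent.H16.FCSolv

/-!
Generators and relations of groups with cyclic Sylow subgroups.
-/

set_option autoImplicit false

namespace Cfsg.Agent.H16

open Function Subgroup
open scoped commutatorElement

variable {G : Type*} [Group G]

theorem conj_pow_pow {x y : G} {r : ℕ} (h : x⁻¹ * y * x = y ^ r) (k : ℕ) :
    (x ^ k)⁻¹ * y * x ^ k = y ^ r ^ k := by
  induction k with
  | zero => simp
  | succ k ih =>
    have := conj_pow (a := x⁻¹) (b := y) (i := r ^ k)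
    rw [inv_inv, h, ← pow_mul, ← pow_succ'] at this
    rw [this, ← ih, pow_succ]
    group

theorem exists_zgroup_gens [Finite G] [IsZGroup G] :
    ∃ (x y : G) (r : ℕ), closure {x, y} = ⊤ ∧ x⁻¹ * y * x = y ^ r ∧
      (r - 1).Coprime (orderOf y) ∧ (orderOf x).Coprime (orderOf y) ∧ 1 ≤ r ∧
      r ^ orderOf x % orderOf y = 1 % orderOf y ∧ zpowers y = _root_.commutator G ∧
      orderOf y * orderOf x = Nat.card G := by
  obtain ⟨H, hH⟩ := exists_right_complement'_of_coprime (IsZGroup.coprime_commutator_index G)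
  have h1 : Abelianization G ≃* H := hH.symm.QuotientMulEquiv
  obtain ⟨x, rfl⟩ := (Subgroup.isCyclic_iff_exists_zpowers_eq_top H).1
    (isCyclic_of_surjective _ h1.surjective)
  obtain ⟨y, hy⟩ := (Subgroup.isCyclic_iff_exists_zpowers_eq_top _).1
    (IsZGroup.isCyclic_commutator G)
  have hn : (zpowers y).Normal := hy ▸ inferInstance
  obtain ⟨r, h2, h3⟩ : ∃ r : ℕ, 1 ≤ r ∧ x⁻¹ * y * x = y ^ r := by
    obtain ⟨k, hk⟩ := (mem_powers_iff_mem_zpowers).2 (hn.conj_mem' y (mem_zpowers y) x)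
    exact ⟨k + orderOf y, (orderOf_pos y).trans_le le_add_self, by
      rw [pow_add, pow_orderOf_eq_one, mul_one]; exact hk.symm⟩
  have h4 : closure {x, y} = ⊤ := by
    rw [← hH.sup_eq_top, ← hy, zpowers_eq_closure, zpowers_eq_closure, ← Subgroup.closure_union,
      Set.union_comm]
    rfl
  have h5 : (orderOf x).Coprime (orderOf y) := by
    have := IsZGroup.coprime_commutator_index G
    rwa [hH.symm.index_eq_card, ← hy, Nat.card_zpowers, Nat.card_zpowers, Nat.coprime_comm] at this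
  refine ⟨x, y, r, h4, h3, ?_, h5, h2, ?_, hy, ?_⟩
  · have : (zpowers (y ^ (r - 1))).Normal := ⟨by
      rintro _ ⟨k, rfl⟩ g
      obtain ⟨l, hl⟩ := hn.conj_mem y (mem_zpowers y) g
      refine ⟨l * k, ?_⟩
      simp only [← conj_zpow, ← conj_pow, ← hl, ← zpow_natCast, ← zpow_mul]
      congr 1
      ring⟩
    have hc : IsMulCommutative (closure {(x : G ⧸ zpowers (y ^ (r - 1))), (y : G ⧸ _)}) := by
      have : (y : G ⧸ zpowers (y ^ (r - 1))) * x = x * y := by
        rw [← QuotientGroup.mk_mul, ← QuotientGroup.mk_mul, eq_comm, QuotientGroup.eq,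
          mul_inv_rev, mul_assoc, ← mul_assoc x⁻¹, h3, ← Nat.sub_add_cancel h2, pow_succ',
          inv_mul_cancel_left]
        exact mem_zpowers _
      refine isMulCommutative_closure ?_
      rintro _ (rfl | rfl) _ (rfl | rfl) <;> first | rfl | exact this | exact this.symm
    refine mem_zpowers_pow_iff.1 ((Normal.quotient_commutative_iff_commutator_le.1 ?_)
      (hy.le (mem_zpowers y)))
    have e := congrArg (map (QuotientGroup.mk' (zpowers (y ^ (r - 1))))) h4
    rw [MonoidHom.map_closure, Set.image_pair, map_top_of_surjective _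
      (QuotientGroup.mk'_surjective _)] at e
    exact ⟨⟨fun a b => setLike_mul_comm (s := closure {(x : G ⧸ zpowers (y ^ (r - 1))), ↑y})
      (e.ge (mem_top a)) (e.ge (mem_top b))⟩⟩
  · have := conj_pow_pow h3 (orderOf x)
    rw [pow_orderOf_eq_one, inv_one, one_mul, mul_one] at this
    exact pow_eq_pow_iff_modEq.1 (this.symm.trans (pow_one y).symm)
  · rw [← hH.card_mul, ← hy, Nat.card_zpowers, Nat.card_zpowers]

theorem card_le_of_metacyclic {x y : G} {n m r : ℕ} (hn : 0 < n) (hm : 0 < m) (hx : x ^ n = 1)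
    (hy : y ^ m = 1) (h : x⁻¹ * y * x = y ^ r) (hc : closure {x, y} = ⊤) :
    Finite G ∧ Nat.card G ≤ m * n := by
  have h1 : ∀ g : G, ∃ i j : ℕ, g = x ^ i * y ^ j := fun g => by
    have h2 : g ∈ Submonoid.closure {x, y} := by
      refine closure_induction'' (fun _ => Submonoid.mem_closure_of_mem) ?_ (one_mem _)
        (fun _ _ _ _ => mul_mem) (hc.ge (mem_top g))
      rintro z (rfl | rfl)
      · rw [inv_eq_of_mul_eq_one_right (mul_pow_sub_one hn.ne' z |>.trans hx)]
        exact pow_mem (Submonoid.mem_closure_of_mem (by simp)) _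
      · rw [inv_eq_of_mul_eq_one_right (mul_pow_sub_one hm.ne' z |>.trans hy)]
        exact pow_mem (Submonoid.mem_closure_of_mem (by simp)) _
    refine Submonoid.closure_induction_right ⟨0, 0, by simp⟩ ?_ h2
    rintro _ - z (rfl | rfl) ⟨i, j, rfl⟩
    · refine ⟨i + 1, r * j, ?_⟩
      have := conj_pow (a := z⁻¹) (b := y) (i := j)
      rw [inv_inv] at this
      rw [pow_mul, ← h, this]
      group
    · exact ⟨i, j + 1, by rw [pow_succ, mul_assoc]⟩
  have h2 : Surjective fun p : Fin m × Fin n => x ^ (p.2 : ℕ) * y ^ (p.1 : ℕ) := fun g => by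
    obtain ⟨i, j, rfl⟩ := h1 g
    exact ⟨(⟨j % m, Nat.mod_lt _ hm⟩, ⟨i % n, Nat.mod_lt _ hn⟩), by
      simp only [← pow_eq_pow_mod _ hx, ← pow_eq_pow_mod _ hy]⟩
  exact ⟨Finite.of_surjective _ h2, by simpa using Nat.card_le_card_of_surjective _ h2⟩

theorem nonempty_equiv_metacyclic [Finite G] {x y : G} {r : ℕ} (h : x⁻¹ * y * x = y ^ r)
    (hc : closure {x, y} = ⊤) (hG : orderOf y * orderOf x = Nat.card G) :
    Nonempty (G ≃* PresentedGroup ({FreeGroup.of (0 : Fin 2) ^ orderOf x,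
      FreeGroup.of (1 : Fin 2) ^ orderOf y, (FreeGroup.of (0 : Fin 2))⁻¹ * FreeGroup.of 1 *
        FreeGroup.of 0 * (FreeGroup.of (1 : Fin 2) ^ r)⁻¹} : Set (FreeGroup (Fin 2)))) := by
  generalize hR : ({FreeGroup.of (0 : Fin 2) ^ orderOf x,
    FreeGroup.of (1 : Fin 2) ^ orderOf y, (FreeGroup.of (0 : Fin 2))⁻¹ * FreeGroup.of 1 *
      FreeGroup.of 0 * (FreeGroup.of (1 : Fin 2) ^ r)⁻¹} : Set (FreeGroup (Fin 2))) = R
  have h1 : ∀ w ∈ R, FreeGroup.lift ![x, y] w = 1 := by
    rw [← hR]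
    rintro _ (rfl | rfl | rfl) <;> simp [h]
  have h2 : ∀ w ∈ R, PresentedGroup.mk R w = 1 := fun w => PresentedGroup.one_of_mem
  obtain ⟨h3, h4⟩ := card_le_of_metacyclic (x := (PresentedGroup.of 0 : PresentedGroup R))
    (y := PresentedGroup.of 1) (r := r) (orderOf_pos x) (orderOf_pos y)
    (h2 (FreeGroup.of 0 ^ _) (by simp [← hR])) (h2 (FreeGroup.of 1 ^ _) (by simp [← hR]))
    (mul_inv_eq_one.1 (h2 ((FreeGroup.of 0)⁻¹ * FreeGroup.of 1 * FreeGroup.of 0 *
      (FreeGroup.of 1 ^ r)⁻¹) (by simp [← hR])))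
    (by rw [← PresentedGroup.closure_range_of R]; congr 1; ext; simp [Fin.exists_fin_two, eq_comm])
  have h5 : Surjective (PresentedGroup.toGroup h1) := by
    rw [← MonoidHom.range_eq_top, eq_top_iff, ← hc, closure_le]
    rintro _ (rfl | rfl)
    · exact ⟨.of 0, PresentedGroup.toGroup.of h1⟩
    · exact ⟨.of 1, PresentedGroup.toGroup.of h1⟩
  exact ⟨(MulEquiv.ofBijective _ (h5.bijective_of_nat_card_le (hG ▸ h4))).symm⟩

variable [Finite G]

theorem NoInt.le_centralizer_of_prime (h : NoInt G) {K R : Subgroup G} [IsMulCommutative K]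
    (hn : R ≤ normalizer (K : Set G)) (hR : (Nat.card R).Prime)
    (hc : (Nat.card K).Coprime (Nat.card R)) : R ≤ centralizer (K : Set G) := by
  rw [← commutator_eq_bot_iff_le_centralizer, Subgroup.commutator_comm]
  exact h.eq_bot_of_semiReg (normalizer_commutator_ge_right K R) (H28.semiReg_iff.2
    (FT.semiReg_of_prime hR (FT.coprime_abel_cent_TI hn hc ‹_›))) (FT.ne_bot_of_prime_card hR)

theorem NoInt.mem_centralizer_of_squarefree (h : NoInt G) {K : Subgroup G} [IsMulCommutative K]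
    {w : G} (hn : w ∈ normalizer (K : Set G)) (hs : Squarefree (orderOf w))
    (hc : (Nat.card K).Coprime (orderOf w)) : w ∈ centralizer (K : Set G) := by
  have key : ∀ k : ℕ, w ^ k ∈ centralizer (K : Set G) ↔
      orderOf (K.normalizerMonoidHom ⟨w, hn⟩) ∣ k := fun k => by
    rw [orderOf_dvd_iff_pow_eq_one, ← map_pow, ← MonoidHom.mem_ker, normalizerMonoidHom_ker]
    rfl
  rw [← pow_one w, key, Nat.dvd_one]
  by_contra h1
  obtain ⟨q, hq, h2⟩ := Nat.exists_prime_and_dvd h1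
  obtain ⟨k, hk⟩ := h2.trans ((key _).1 (pow_orderOf_eq_one w ▸ one_mem _))
  have h3 : Nat.card (zpowers (w ^ k)) = q := by
    have := (orderOf_pos w).ne'
    rw [hk] at this
    rw [Nat.card_zpowers, orderOf_pow' _ (right_ne_zero_of_mul this), hk, Nat.gcd_mul_left_left,
      Nat.mul_div_cancel _ (Nat.pos_of_ne_zero (right_ne_zero_of_mul this))]
  have h4 := (key k).1 (h.le_centralizer_of_prime (zpowers_le.2 (pow_mem hn k)) (h3 ▸ hq)
    (h3 ▸ hc.coprime_dvd_right ⟨k, hk⟩) (mem_zpowers _))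
  exact hq.not_isUnit (hs q (hk ▸ mul_dvd_mul_left q (h2.trans h4)))

theorem NoInt.exists_presentation (h : NoInt G) [IsZGroup G] :
    ∃ n m r : ℕ, 0 < n ∧ 0 < m ∧ Nat.Coprime (r - 1) m ∧ Nat.Coprime n m ∧ 1 ≤ r ∧
      r ^ (n / ∏ p ∈ n.primeFactors, p) % m = 1 % m ∧
      Nonempty (G ≃* PresentedGroup ({FreeGroup.of (0 : Fin 2) ^ n, FreeGroup.of (1 : Fin 2) ^ m,
        (FreeGroup.of (0 : Fin 2))⁻¹ * FreeGroup.of 1 * FreeGroup.of 0 *
          (FreeGroup.of (1 : Fin 2) ^ r)⁻¹} : Set (FreeGroup (Fin 2)))) := by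
  obtain ⟨x, y, r, h1, h2, h3, h4, h5, -, h6, h7⟩ := exists_zgroup_gens (G := G)
  refine ⟨_, _, r, orderOf_pos x, orderOf_pos y, h3, h4, h5, ?_, nonempty_equiv_metacyclic h2 h1 h7⟩
  have hn : (zpowers y).Normal := h6 ▸ inferInstance
  have h8 := orderOf_pow_orderOf_div (orderOf_pos x).ne' (Nat.prod_primeFactors_dvd (orderOf x))
  have h9 := h.mem_centralizer_of_squarefree (K := zpowers y) (le_normalizer_of_normal (mem_top _))
    (h8 ▸ Finset.squarefree_prod_of_pairwise_isCoprime (fun p hp q hq e => Nat.coprime_iff_isRelPrime.1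
      ((Nat.coprime_primes (Nat.prime_of_mem_primeFactors hp)
        (Nat.prime_of_mem_primeFactors hq)).2 e))
      fun p hp => (Nat.prime_of_mem_primeFactors hp).squarefree)
    (Nat.card_zpowers y ▸ h4.symm.coprime_dvd_right (orderOf_pow_dvd _)) y (mem_zpowers y)
  have := conj_pow_pow h2 (orderOf x / ∏ p ∈ (orderOf x).primeFactors, p)
  rw [mul_assoc, h9, inv_mul_cancel_left] at this
  exact pow_eq_pow_iff_modEq.1 (this.symm.trans (pow_one y).symm)

end Cfsg.Agent.H16
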